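import Cfsg.Agent.H444.FprOdd
import Cfsg.Agent.H463.LieOdd

/-!
# Fixed point ratios of `p`-elements in groups of Lie type of odd characteristic `p`

* `exists_uniq` : in a group with a split (B,N)-pair of characteristic `p` with commutative torus some element
  lies in only one Sylow `p`-subgroup;
* `row_own` : the row.
-/

set_option autoImplicit false

namespace Cfsg.Agent.H444.Fpr

open Cfsg Cfsg.Agent.LieExceptional.BNPairCore Cfsg.Agent.Tits.Core Cfsg.Agent.Tits.Core.Bldg Cfsg.Agent.Tits.OfBN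
  Cfsg.Agent.Schreier.BNSch Cfsg.Agent.Tits.OppRes Cfsg.Agent.FixBN

universe u

section

variable {K : Type*} [Group K] [Finite K] {p : ℕ} {P : Cfsg.BNPair K} {U : Subgroup K}

/-- **Regular unipotent elements lie in only one Sylow subgroup.** -/
theorem exists_uniq [hp : Fact p.Prime] (h : Split P p U)
    (hT : ∀ a ∈ P.B ⊓ P.N, ∀ b ∈ P.B ⊓ P.N, a * b = b * a) :
    ∃ z : K, ∃ Q : Sylow p K, z ∈ Q ∧ ∀ Q' : Sylow p K, z ∈ Q' → Q' = Q := by
  have hN : ((P.B ⊓ P.N).subgroupOf P.N).Normal := normal_subgroupOf P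
  obtain ⟨M, cs, hcs'⟩ := S0320.result P
  have hcs : ∀ i, cs.simple i = QuotientGroup.mk (⟨((Equiv.refl P.S i : P.S) : K), P.subset (Equiv.refl P.S i).2⟩ : P.N) :=
    hcs'
  have hI : Finite P.S := OfBN.finite_I (Equiv.refl P.S)
  have hW : Finite (WP P) := inferInstance
  let Δ := bldg P (Equiv.refl P.S) cs hcs
  let Sy := OfBN.sys (Equiv.refl P.S) cs hcs h
  have F : Cox cs := inferInstance
  have hfaith : FaithfulSMul K (K ⧸ P.B) := Tits.OfBN.faithful P h.core
  obtain ⟨n, hn⟩ := QuotientGroup.mk_surjective (w0 cs)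
  have hopp : Δ.Opp (QuotientGroup.mk 1) (QuotientGroup.mk (n : K)) := by
    show Δ.δ (QuotientGroup.mk 1) (QuotientGroup.mk (n : K)) = w0 cs
    rw [show Δ.δ (QuotientGroup.mk 1) (QuotientGroup.mk (n : K)) = wt P (1⁻¹ * (n : K)) from bldg_δ_mk _ _ _ _ _ _,
      inv_one, one_mul, wt_of_mem P (self_mem_C (n : K)), hn]
  have hstab : ∀ a : K, a • (QuotientGroup.mk 1 : K ⧸ P.B) = QuotientGroup.mk 1 →
      a • (QuotientGroup.mk (n : K) : K ⧸ P.B) = QuotientGroup.mk (n : K) → a ∈ P.B ⊓ P.N := by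
    intro a h1 h2
    have haB : a ∈ P.B := by
      have := OfBN.smul_mk_eq.1 h1
      simpa using this
    obtain ⟨u, hu, t, ht, rfl⟩ := h.cover' haB
    have ht2 : t • (QuotientGroup.mk (n : K) : K ⧸ P.B) = QuotientGroup.mk (n : K) := by
      rw [OfBN.smul_mk_eq]
      exact conj_mem_inv n.2 ht.1 ht.2
    have hu2 : u • (QuotientGroup.mk (n : K) : K ⧸ P.B) = QuotientGroup.mk (n : K) := by
      rw [mul_smul, ht2] at h2
      exact h2
    have hu' : u ∈ Sy.U (QuotientGroup.mk 1) := by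
      show u ∈ OfBN.UU P U (QuotientGroup.mk 1)
      rw [OfBN.mem_UU h]
      simpa using hu
    have hu1 := Sy.free _ _ hopp u hu' hu2
    rw [hu1, one_mul]
    exact ht
  obtain ⟨z, hz, hfix, -⟩ := H463.RegUnip.exists_regular_unipotent Sy (thick P (Equiv.refl P.S) cs hcs) hfaith hopp
    (fun a b ha1 ha2 hb1 hb2 => hT a (hstab a ha1 ha2) b (hstab b hb1 hb2))
  have hz' : z ∈ OfBN.UU P U (QuotientGroup.mk 1) := hz
  have key : ∀ Q : Sylow p K, z ∈ Q → (Q : Subgroup K) = OfBN.UU P U (QuotientGroup.mk 1) := by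
    intro Q hQ
    obtain ⟨y, hy⟩ := OfBN.exists_fix h (Q : Subgroup K) Q.isPGroup'
    have h1 : y = QuotientGroup.mk 1 := hfix y (hy z hQ)
    subst h1
    have h2 := OfBN.max h _ (Q : Subgroup K) Q.isPGroup' hy
    exact (Q.3 (OfBN.isP h _) h2).symm
  have hzp : IsPGroup p (Subgroup.zpowers z) :=
    (OfBN.isP h (QuotientGroup.mk 1)).to_le (by rw [Subgroup.zpowers_le]; exact hz')
  obtain ⟨Q, hQ⟩ := hzp.exists_le_sylow
  refine ⟨z, Q, hQ (Subgroup.mem_zpowers z), fun Q' hQ' => ?_⟩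
  exact Sylow.ext ((key Q' hQ').trans (key Q (hQ (Subgroup.mem_zpowers z))).symm)

end

/-- **The row in the own characteristic.** -/
theorem row_own {p : ℕ} [Fact p.Prime] (hp2 : p ≠ 2) {S : Type u} [Group S] [Finite S] [hs : IsSimpleGroup S]
    (hS : IsLieTypeChar p S) (hpS : p ∣ Nat.card S) : Row p S := by
  obtain ⟨P, U, hne, h, hc⟩ := H463.LieOdd.splitAb hp2 hs hS
  obtain ⟨z, Q, hz, hQ⟩ := exists_uniq h hc
  exact row_of_uniq (pGen_of_simple hpS) hp2 hz hQ

end Cfsg.Agent.H444.Fpr
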