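import Mathlib
import Cfsg.Prelude.Def_CaseTheorems
import Cfsg.Agent.StdEven.Syl
import Cfsg.Agent.PLocal.ConjFunctor
import Cfsg.Agent.Transfer.ThompsonTransfer
import Cfsg.Agent.TwoFusion.RankTwoBasic
import Cfsg.Agent.TwoFusion.NoNormalFour
import Cfsg.Agent.TwoFusion.MaxClass
import Cfsg.Agent.Involutions.RankThree

/-!
# Groups of 2-rank two with a 2-central involution whose centralizer is 2-closed modulo an odd order subgroup

`K` is a finite group with `O²(K) = K`, of 2-rank at most two, `R` a Sylow 2-subgroup whose centre contains only one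
involution `z`, and `C(z) = X N_{C(z)}(R)` for some subgroup `X` of odd order normal in `C(z)`. If `z` is conjugate to
another element of `R`, then `R` is dihedral or quasi-dihedral.
-/

set_option autoImplicit false
set_option linter.unusedSectionVars false

namespace Cfsg.Agent.H444.RankTwoMain

open Subgroup Cfsg Cfsg.Agent.StdEven.Syl

/-- The hypotheses. -/
structure Hyp (K : Type*) [Group K] (R X : Subgroup K) (z : K) : Prop where
  syl : IsSyl R ⊤
  res : Cfsg.pResidual 2 K = ⊤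
  rank : Cfsg.PRankLE 2 2 K
  zR : z ∈ R
  z1 : z ≠ 1
  z2 : z * z = 1
  zc : ∀ r ∈ R, r * z = z * r
  uz : ∀ x ∈ R, x * x = 1 → (∀ r ∈ R, r * x = x * r) → x = 1 ∨ x = z
  Xodd : Odd (Nat.card X)
  Xc : ∀ x ∈ X, x * z = z * x
  Xn : ∀ c, c * z = z * c → ∀ x ∈ X, c * x * c⁻¹ ∈ X
  Xz : ∀ c, c * z = z * c → ∃ x ∈ X, x * c ∈ normalizer (R : Set K)

variable {K : Type*} [Group K] [Finite K] {R X : Subgroup K} {z : K}

/-- an element of 2-power order in a subgroup of odd order is trivial -/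
theorem eq_one_of_mem {R X : Subgroup K} (hR : IsPGroup 2 R) (hX : Odd (Nat.card X)) {y : K} (hy : y ∈ R)
    (hyX : y ∈ X) : y = 1 := by
  obtain ⟨k, hk⟩ := IsPGroup.iff_orderOf.1 hR ⟨y, hy⟩
  rw [Subgroup.orderOf_mk] at hk
  have h3 : orderOf y ∣ Nat.card X := by
    rw [← Subgroup.orderOf_mk y hyX]
    exact _root_.orderOf_dvd_natCard _
  rw [hk] at h3
  rcases Nat.eq_zero_or_pos k with rfl | hk0
  · rwa [pow_zero, orderOf_eq_one_iff] at hk
  · exfalso
    have h4 : 2 ∣ Nat.card X := (dvd_pow_self 2 hk0.ne').trans h3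
    exact (Nat.not_even_iff_odd.2 hX) (even_iff_two_dvd.2 h4)

namespace Hyp

/-- 2-subgroups of `C(z)` containing `w ∈ R` are conjugate into `R` by elements of `X` commuting with `w`. -/
theorem exists_conj_X (h : Hyp K R X z) {Q : Subgroup K} (hQ : IsPGroup 2 Q) (hQz : ∀ q ∈ Q, q * z = z * q) {w : K}
    (hw : w ∈ R) (hwQ : w ∈ Q) : ∃ x ∈ X, x * w = w * x ∧ ∀ q ∈ Q, x * q * x⁻¹ ∈ R := by
  have hRC : IsSyl R (centralizer ({z} : Set K)) := h.syl.mono (fun r hr => by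
    rw [mem_centralizer_singleton_iff]
    exact h.zc r hr) le_top
  obtain ⟨c, hc, hcQ⟩ := hRC.exists_conj hQ (fun q hq => by
    rw [mem_centralizer_singleton_iff]
    exact hQz q hq)
  have hc' : c⁻¹ * z = z * c⁻¹ := mem_centralizer_singleton_iff.1 (inv_mem hc)
  obtain ⟨x, hx, hxc⟩ := h.Xz c⁻¹ hc'
  have key : ∀ q ∈ Q, x * q * x⁻¹ ∈ R := by
    intro q hq
    have h1 := conj_mem_of_mem_normalizer hxc (hcQ q hq)
    have h2 : x * c⁻¹ * (c * q * c⁻¹) * (x * c⁻¹)⁻¹ = x * q * x⁻¹ := by group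
    rwa [h2] at h1
  refine ⟨x, hx, ?_, key⟩
  have h1 : x * w * x⁻¹ * w⁻¹ ∈ R := mul_mem (key w hwQ) (inv_mem hw)
  have h2 : x * w * x⁻¹ * w⁻¹ ∈ X := by
    have h3 : x * w * x⁻¹ * w⁻¹ = x * (w * x⁻¹ * w⁻¹) := by group
    rw [h3]
    exact mul_mem hx (h.Xn w (h.zc w hw) _ (inv_mem hx))
  have h3 := eq_one_of_mem h.syl.two h.Xodd h1 h2
  rw [mul_inv_eq_one, mul_inv_eq_iff_eq_mul] at h3
  exact h3

/-- For `w ∈ R` conjugate to `z`, `C_R(w) = R ∩ Rᵍ = C_{Rᵍ}(z)` for some `g` with `w = zᵍ`. -/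
theorem exists_conj_eq (h : Hyp K R X z) {w : K} (hw : w ∈ R) (hconj : ∃ g : K, g * z * g⁻¹ = w) :
    ∃ g : K, g * z * g⁻¹ = w ∧ (∀ a ∈ R, a * w = w * a → g⁻¹ * a * g ∈ R) ∧
      ∀ b : K, g⁻¹ * b * g ∈ R → b * z = z * b → b ∈ R ∧ b * w = w * b := by
  obtain ⟨g₀, hg₀⟩ := hconj
  set A : Subgroup K := R ⊓ centralizer ({w} : Set K) with hA
  have hAp : IsPGroup 2 A := h.syl.two.to_le inf_le_left
  have hRC : IsSyl R (centralizer ({z} : Set K)) := h.syl.mono (fun r hr => by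
    rw [mem_centralizer_singleton_iff]
    exact h.zc r hr) le_top
  obtain ⟨c, hc, hcQ⟩ := hRC.exists_conj (isPGroup_map hAp g₀⁻¹) (by
    intro y hy
    rw [mem_map_conj, inv_inv] at hy
    obtain ⟨hy1, hy2⟩ := mem_inf.1 hy
    rw [mem_centralizer_singleton_iff] at hy2 ⊢
    rw [← hg₀] at hy2
    have h1 : g₀ * y * g₀⁻¹ * (g₀ * z * g₀⁻¹) = g₀ * (y * z) * g₀⁻¹ := by group
    have h2 : g₀ * z * g₀⁻¹ * (g₀ * y * g₀⁻¹) = g₀ * (z * y) * g₀⁻¹ := by group
    rw [h1, h2] at hy2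
    exact mul_left_cancel (mul_right_cancel hy2))
  have hc' : c * z = z * c := mem_centralizer_singleton_iff.1 hc
  set g : K := g₀ * c⁻¹ with hg
  have hgz : g * z * g⁻¹ = w := by
    rw [hg, ← hg₀]
    have h1 : c⁻¹ * z * c = z := by
      rw [mul_assoc, ← hc', inv_mul_cancel_left]
    calc g₀ * c⁻¹ * z * (g₀ * c⁻¹)⁻¹ = g₀ * (c⁻¹ * z * c) * g₀⁻¹ := by group
      _ = _ := by rw [h1]
  have hAg : ∀ a ∈ R, a * w = w * a → g⁻¹ * a * g ∈ R := by
    intro a ha haw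
    have h1 : g₀⁻¹ * a * g₀ ∈ A.map (MulAut.conj g₀⁻¹).toMonoidHom := by
      rw [mem_map_conj]
      have h2 : g₀⁻¹⁻¹ * (g₀⁻¹ * a * g₀) * g₀⁻¹ = a := by group
      rw [h2]
      exact mem_inf.2 ⟨ha, mem_centralizer_singleton_iff.2 haw⟩
    have h2 := hcQ _ h1
    have h3 : c * (g₀⁻¹ * a * g₀) * c⁻¹ = g⁻¹ * a * g := by rw [hg]; group
    rwa [h3] at h2
  refine ⟨g, hgz, hAg, ?_⟩
  set B : Subgroup K := R.map (MulAut.conj g).toMonoidHom ⊓ centralizer ({z} : Set K) with hB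
  have hBp : IsPGroup 2 B := (isPGroup_map h.syl.two g).to_le inf_le_left
  have hwz : w * z = z * w := h.zc w hw
  have hAB : A ≤ B := by
    intro a ha
    obtain ⟨ha1, ha2⟩ := mem_inf.1 ha
    refine mem_inf.2 ⟨mem_map_conj.2 (hAg a ha1 (mem_centralizer_singleton_iff.1 ha2)), ?_⟩
    rw [mem_centralizer_singleton_iff]
    exact h.zc a ha1
  have hwA : w ∈ A := mem_inf.2 ⟨hw, mem_centralizer_singleton_iff.2 rfl⟩
  obtain ⟨x, hx, hxw, hxB⟩ := h.exists_conj_X hBp (fun b hb => mem_centralizer_singleton_iff.1 (mem_inf.1 hb).2) hw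
    (hAB hwA)
  have hBw : ∀ b ∈ B, b * w = w * b := by
    intro b hb
    have h1 := mem_map_conj.1 (mem_inf.1 hb).1
    have h2 := h.zc _ h1
    rw [← hgz]
    calc b * (g * z * g⁻¹) = g * ((g⁻¹ * b * g) * z) * g⁻¹ := by group
      _ = g * (z * (g⁻¹ * b * g)) * g⁻¹ := by rw [h2]
      _ = _ := by group
  have hcard : Nat.card B ≤ Nat.card A := by
    have h1 : B.map (MulAut.conj x).toMonoidHom ≤ A := by
      rintro _ ⟨b, hb, rfl⟩
      refine mem_inf.2 ⟨hxB b hb, ?_⟩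
      rw [mem_centralizer_singleton_iff]
      show x * b * x⁻¹ * w = w * (x * b * x⁻¹)
      have hxw' : x⁻¹ * w = w * x⁻¹ := by
        rw [inv_mul_eq_iff_eq_mul, ← mul_assoc, hxw, mul_inv_cancel_right]
      calc x * b * x⁻¹ * w = x * b * (x⁻¹ * w) := by group
        _ = x * (b * w) * x⁻¹ := by rw [hxw']; group
        _ = (x * w) * b * x⁻¹ := by rw [hBw b hb]; group
        _ = w * (x * b * x⁻¹) := by rw [hxw]; group
    have h2 : Nat.card (B.map (MulAut.conj x).toMonoidHom) = Nat.card B :=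
      (Nat.card_congr (B.equivMapOfInjective _ (MulAut.conj x).injective).toEquiv).symm
    rw [← h2]
    exact Subgroup.card_le_of_le h1
  have hAB' : A = B := Subgroup.eq_of_le_of_card_ge hAB hcard
  intro b hb hbz
  have h1 : b ∈ A := by
    rw [hAB']
    exact mem_inf.2 ⟨mem_map_conj.2 hb, mem_centralizer_singleton_iff.2 hbz⟩
  obtain ⟨h2, h3⟩ := mem_inf.1 h1
  exact ⟨h2, mem_centralizer_singleton_iff.1 h3⟩


open Cfsg.Agent.TwoFusion.RankTwoBasic

theorem four (h : Hyp K R X z) {w : K} (hw : w ∈ R) (hwz : w ≠ z) (hconj : ∃ g : K, g * z * g⁻¹ = w) : Four z w := by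
  obtain ⟨g, hg⟩ := hconj
  refine ⟨h.z2, ?_, h.zc w hw, h.z1, ?_, fun h1 => hwz h1.symm⟩
  · rw [← hg]
    calc g * z * g⁻¹ * (g * z * g⁻¹) = g * (z * z) * g⁻¹ := by group
      _ = 1 := by rw [h.z2]; group
  · rintro rfl
    apply h.z1
    have h1 : g * z = g * 1 := by rw [mul_one, ← mul_inv_eq_one]; exact hg
    exact mul_left_cancel h1

/-- the involutions of `C_R(w)` -/
theorem invol (h : Hyp K R X z) {w : K} (hf : Four z w) {a : K} (ha : a ∈ R) (haw : a * w = w * a) (ha2 : a * a = 1) :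
    a = 1 ∨ a = z ∨ a = w ∨ a = z * w :=
  mem_of_commute h.rank hf.zz hf.tt ha2 hf.comm.symm (h.zc a ha).symm haw.symm hf.z1 hf.t1 hf.ne

theorem exists_swaps (h : Hyp K R X z) {w : K} (hw : w ∈ R) (hwz : w ≠ z) (hconj : ∃ g : K, g * z * g⁻¹ = w) :
    (∃ s ∈ R, s ∈ normalizer ((R ⊓ centralizer ({w} : Set K) : Subgroup K) : Set K) ∧ s * w * s⁻¹ = z * w) ∧
      ∃ s ∈ normalizer ((R ⊓ centralizer ({w} : Set K) : Subgroup K) : Set K),
        s * z * s⁻¹ = z * w ∧ s * w * s⁻¹ = w := by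
  have h2 : Fact (Nat.Prime 2) := ⟨Nat.prime_two⟩
  have hf := h.four hw hwz hconj
  obtain ⟨g, hgz, hAg, hgB⟩ := h.exists_conj_eq hw hconj
  set A : Subgroup K := R ⊓ centralizer ({w} : Set K) with hA
  have hmem : ∀ a, a ∈ A ↔ a ∈ R ∧ a * w = w * a := by
    intro a
    rw [hA, mem_inf, mem_centralizer_singleton_iff]
  have hwA : w ∈ A := (hmem w).2 ⟨hw, rfl⟩
  have hzA : z ∈ A := (hmem z).2 ⟨h.zR, (h.zc w hw).symm⟩
  have hinv : ∀ a ∈ A, a * a = 1 → a = 1 ∨ a = z ∨ a = w ∨ a = z * w := fun a ha ha2 =>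
    h.invol hf ((hmem a).1 ha).1 ((hmem a).1 ha).2 ha2
  constructor
  · have hlt : A < R := by
      refine lt_of_le_of_ne inf_le_left fun he => ?_
      rcases h.uz w hw hf.tt (fun r hr => ((hmem r).1 (he ▸ hr)).2) with h1 | h1
      · exact hf.t1 h1
      · exact hwz h1
    obtain ⟨s, hs, hsA⟩ := SetLike.exists_of_lt (Cfsg.Agent.PLocal.ConjFunctor.lt_inf_normalizer h.syl.two hlt)
    obtain ⟨hsR, hsN⟩ := mem_inf.1 hs
    refine ⟨s, hsR, hsN, ?_⟩
    have h1 : s * w * s⁻¹ ∈ A := conj_mem_of_mem_normalizer hsN hwA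
    rcases hinv _ h1 (by
      calc s * w * s⁻¹ * (s * w * s⁻¹) = s * (w * w) * s⁻¹ := by group
        _ = 1 := by rw [hf.tt]; group) with h3 | h3 | h3 | h3
    · exfalso
      apply hf.t1
      have h4 : s * w = s * 1 := by rw [mul_one, ← mul_inv_eq_one]; exact h3
      exact mul_left_cancel h4
    · exfalso
      apply hwz
      rw [mul_inv_eq_iff_eq_mul, ← h.zc s hsR] at h3
      exact mul_left_cancel h3
    · exfalso
      apply hsA
      rw [mul_inv_eq_iff_eq_mul] at h3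
      exact (hmem s).2 ⟨hsR, h3⟩
    · exact h3
  · set Rg : Subgroup K := R.map (MulAut.conj g).toMonoidHom with hRg
    have hwc : ∀ r ∈ Rg, r * w = w * r := by
      intro r hr
      have h1 := h.zc _ (mem_map_conj.1 hr)
      rw [← hgz]
      calc r * (g * z * g⁻¹) = g * ((g⁻¹ * r * g) * z) * g⁻¹ := by group
        _ = g * (z * (g⁻¹ * r * g)) * g⁻¹ := by rw [h1]
        _ = _ := by group
    have hle : A ≤ Rg := fun a ha => mem_map_conj.2 (hAg a ((hmem a).1 ha).1 ((hmem a).1 ha).2)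
    have hlt : A < Rg := by
      refine lt_of_le_of_ne hle fun he => ?_
      have h3 : g⁻¹ * z * g ∈ R := mem_map_conj.1 (hle hzA)
      have h4 : g⁻¹ * z * g * (g⁻¹ * z * g) = 1 := by
        calc g⁻¹ * z * g * (g⁻¹ * z * g) = g⁻¹ * (z * z) * g := by group
          _ = 1 := by rw [h.z2]; group
      have h5 : ∀ r ∈ R, r * (g⁻¹ * z * g) = g⁻¹ * z * g * r := by
        intro r hr
        have h6 : g * r * g⁻¹ ∈ A := by
          rw [he]
          exact conj_mem_map g hr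
        have h7 := h.zc _ ((hmem _).1 h6).1
        calc r * (g⁻¹ * z * g) = g⁻¹ * (g * r * g⁻¹ * z) * g := by group
          _ = g⁻¹ * (z * (g * r * g⁻¹)) * g := by rw [h7]
          _ = _ := by group
      rcases h.uz _ h3 h4 h5 with h6 | h6
      · apply h.z1
        have : z = g * (g⁻¹ * z * g) * g⁻¹ := by group
        rw [this, h6]
        group
      · apply hwz
        rw [← hgz]
        have : z = g * (g⁻¹ * z * g) * g⁻¹ := by group
        rw [h6] at this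
        exact this.symm
    obtain ⟨s, hs, hsA⟩ := SetLike.exists_of_lt
      (Cfsg.Agent.PLocal.ConjFunctor.lt_inf_normalizer (isPGroup_map h.syl.two g) hlt)
    obtain ⟨hsR, hsN⟩ := mem_inf.1 hs
    have hsw : s * w * s⁻¹ = w := by
      rw [hwc s hsR, mul_inv_cancel_right]
    refine ⟨s, hsN, ?_, hsw⟩
    have h1 : s * z * s⁻¹ ∈ A := conj_mem_of_mem_normalizer hsN hzA
    rcases hinv _ h1 (by
      calc s * z * s⁻¹ * (s * z * s⁻¹) = s * (z * z) * s⁻¹ := by group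
        _ = 1 := by rw [h.z2]; group) with h3 | h3 | h3 | h3
    · exfalso
      apply h.z1
      have h4 : s * z = s * 1 := by rw [mul_one, ← mul_inv_eq_one]; exact h3
      exact mul_left_cancel h4
    · exfalso
      apply hsA
      rw [mul_inv_eq_iff_eq_mul] at h3
      obtain ⟨h4, h5⟩ := hgB s (mem_map_conj.1 hsR) h3
      exact (hmem s).2 ⟨h4, h5⟩
    · exfalso
      apply hwz
      have h4 : s * w * s⁻¹ = s * z * s⁻¹ := by rw [hsw, h3]
      exact mul_left_cancel (mul_right_cancel h4)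
    · exact h3

/-- Either `C_R(w) = {1, z, w, zw}` or `w` is a square in `R`. -/
theorem four_or_sq (h : Hyp K R X z) {w : K} (hw : w ∈ R) (hwz : w ≠ z) (hconj : ∃ g : K, g * z * g⁻¹ = w) :
    (∀ a ∈ R, a * w = w * a → a = 1 ∨ a = z ∨ a = w ∨ a = z * w) ∨ ∃ y ∈ R, y * y = w := by
  have hf := h.four hw hwz hconj
  obtain ⟨⟨s, hsR, hsN, hs⟩, s', hsN', hs'z, hs'w⟩ := h.exists_swaps hw hwz hconj
  set A : Subgroup K := R ⊓ centralizer ({w} : Set K) with hA
  have hmem : ∀ a, a ∈ A ↔ a ∈ R ∧ a * w = w * a := by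
    intro a
    rw [hA, mem_inf, mem_centralizer_singleton_iff]
  by_contra hcon
  push Not at hcon
  obtain ⟨⟨a, haR, haw, ha1, ha2, ha3, ha4⟩, hsq⟩ := hcon
  have haA : a ∈ A := (hmem a).2 ⟨haR, haw⟩
  -- the first `k` with `a ^ (2 ^ k) ∈ {1, z, w, zw}`
  have hex : ∃ k : ℕ, a ^ 2 ^ k = 1 ∨ a ^ 2 ^ k = z ∨ a ^ 2 ^ k = w ∨ a ^ 2 ^ k = z * w := by
    obtain ⟨k, hk⟩ := h.syl.two ⟨a, haR⟩
    exact ⟨k, Or.inl (congrArg Subtype.val hk)⟩
  classical
  obtain ⟨k, hk, hkmin⟩ : ∃ k : ℕ, (a ^ 2 ^ k = 1 ∨ a ^ 2 ^ k = z ∨ a ^ 2 ^ k = w ∨ a ^ 2 ^ k = z * w) ∧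
      ∀ j < k, ¬ (a ^ 2 ^ j = 1 ∨ a ^ 2 ^ j = z ∨ a ^ 2 ^ j = w ∨ a ^ 2 ^ j = z * w) :=
    ⟨Nat.find hex, Nat.find_spec hex, fun j hj => Nat.find_min hex hj⟩
  have hk0 : k ≠ 0 := by
    rintro rfl
    rw [pow_zero, pow_one] at hk
    rcases hk with h1 | h1 | h1 | h1
    · exact ha1 h1
    · exact ha2 h1
    · exact ha3 h1
    · exact ha4 h1
  obtain ⟨j, rfl⟩ := Nat.exists_eq_succ_of_ne_zero hk0
  set y := a ^ 2 ^ j with hy
  have hyA : y ∈ A := pow_mem haA _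
  have hyy : y * y = a ^ 2 ^ (j + 1) := by
    rw [hy, ← pow_add, ← two_mul, ← pow_succ']
  have hyn := hkmin j (Nat.lt_succ_self j)
  rw [Nat.succ_eq_add_one, ← hyy] at hk
  have hsqA : ∀ x ∈ A, x * x ≠ w := fun x hx => hsq x ((hmem x).1 hx).1
  have hcj : ∀ n x : K, n * x * n⁻¹ * (n * x * n⁻¹) = n * (x * x) * n⁻¹ := fun n x => by group
  have hszw : s * (z * w) * s⁻¹ = w := by
    have h1 : s * z * s⁻¹ = z := by rw [h.zc s hsR, mul_inv_cancel_right]
    rw [Cfsg.Agent.TwoFusion.RankTwoBasic.conj_mul, h1, hs, hf.zzt]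
  have hszwA : ∀ x ∈ A, x * x ≠ z * w := by
    intro x hx hxx
    refine hsqA _ (conj_mem_of_mem_normalizer hsN hx) ?_
    rw [hcj, hxx, hszw]
  rcases hk with h1 | h1 | h1 | h1
  · exact hyn (h.invol hf ((hmem y).1 hyA).1 ((hmem y).1 hyA).2 h1)
  · refine hszwA _ (conj_mem_of_mem_normalizer hsN' hyA) ?_
    rw [hcj, h1, hs'z]
  · exact hsqA y hyA h1
  · exact hszwA y hyA h1


/-- The subgroup `{1, z, w, zw}`. -/
def fourGroup {K : Type*} [Group K] {z w : K} (hf : Four z w) : Subgroup K where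
  carrier := {a | a = 1 ∨ a = z ∨ a = w ∨ a = z * w}
  one_mem' := Or.inl rfl
  mul_mem' := by
    have hwz : w * z = z * w := hf.comm
    rintro a b (rfl | rfl | rfl | rfl) (rfl | rfl | rfl | rfl)
    · left; rw [mul_one]
    · right; left; rw [one_mul]
    · right; right; left; rw [one_mul]
    · right; right; right; rw [one_mul]
    · right; left; rw [mul_one]
    · left; exact hf.zz
    · right; right; right; rfl
    · right; right; left; exact hf.zzt
    · right; right; left; rw [mul_one]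
    · right; right; right; exact hwz
    · left; exact hf.tt
    · right; left; exact hf.tzt
    · right; right; right; rw [mul_one]
    · right; right; left; exact hf.ztz
    · right; left; exact hf.ztt
    · left; exact hf.ztzt
  inv_mem' := by
    rintro a (rfl | rfl | rfl | rfl)
    · left; exact inv_one
    · right; left; exact inv_eq_of_mul_eq_one_right hf.zz
    · right; right; left; exact inv_eq_of_mul_eq_one_right hf.tt
    · right; right; right; exact inv_eq_of_mul_eq_one_right hf.ztzt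

theorem mem_fourGroup {K : Type*} [Group K] {z w : K} (hf : Four z w) {a : K} :
    a ∈ fourGroup hf ↔ a = 1 ∨ a = z ∨ a = w ∨ a = z * w := Iff.rfl

theorem card_fourGroup {K : Type*} [Group K] {z w : K} (hf : Four z w) : Nat.card (fourGroup hf) = 4 := by
  classical
  have h1 : ((fourGroup hf : Subgroup K) : Set K) = (({1, z, w, z * w} : Finset K) : Set K) := by
    ext a
    simp [mem_fourGroup]
  have h2 : Nat.card (fourGroup hf) = (({1, z, w, z * w} : Finset K)).card := by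
    have h3 : Nat.card (fourGroup hf) = ((fourGroup hf : Subgroup K) : Set K).ncard := rfl
    rw [h3, h1, Set.ncard_coe_finset]
  rw [h2]
  have e1 := hf.z1
  have e2 := hf.t1
  have e3 := hf.ne
  have e4 := hf.zt1
  have e5 := hf.ztnez
  have e6 := hf.ztnet
  rw [Finset.card_insert_of_notMem, Finset.card_insert_of_notMem, Finset.card_insert_of_notMem, Finset.card_singleton]
  · simpa using e6.symm
  · simp only [Finset.mem_insert, Finset.mem_singleton, not_or]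
    exact ⟨e3, e5.symm⟩
  · simp only [Finset.mem_insert, Finset.mem_singleton, not_or]
    exact ⟨e1.symm, e2.symm, e4.symm⟩

/-- If `C_R(w) = {1, z, w, zw}` then `R` is dihedral or quasi-dihedral. -/
theorem concl_of_four (h : Hyp K R X z) {w : K} (hw : w ∈ R) (hwz : w ≠ z) (hconj : ∃ g : K, g * z * g⁻¹ = w)
    (h4 : ∀ a ∈ R, a * w = w * a → a = 1 ∨ a = z ∨ a = w ∨ a = z * w) :
    (∃ m : ℕ, 2 ≤ m ∧ Nonempty (R ≃* DihedralGroup m)) ∨ Cfsg.IsQuasiDihedral R := by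
  have hf := h.four hw hwz hconj
  have hf' : Four (⟨z, h.zR⟩ : R) ⟨w, hw⟩ :=
    { zz := Subtype.ext hf.zz
      tt := Subtype.ext hf.tt
      comm := Subtype.ext hf.comm
      z1 := fun h1 => hf.z1 (congrArg Subtype.val h1)
      t1 := fun h1 => hf.t1 (congrArg Subtype.val h1)
      ne := fun h1 => hf.ne (congrArg Subtype.val h1) }
  refine Cfsg.Agent.TwoFusion.MaxClass.dihedral_or_qd_of_card_centralizer_eq_four h.syl.two ⟨w, hw⟩ ?_ ?_ ?_
  · rw [Subgroup.orderOf_mk]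
    exact orderOf_eq_prime (by rw [pow_two]; exact hf.tt) hf.t1
  · intro hc
    rw [Subgroup.mem_center_iff] at hc
    rcases h.uz w hw hf.tt (fun r hr => congrArg Subtype.val (hc ⟨r, hr⟩)) with h1 | h1
    · exact hf.t1 h1
    · exact hwz h1
  · have h5 : centralizer ({(⟨w, hw⟩ : R)} : Set R) = fourGroup hf' := by
      ext a
      rw [mem_centralizer_singleton_iff, mem_fourGroup]
      constructor
      · intro ha
        rcases h4 a a.2 (congrArg Subtype.val ha) with h6 | h6 | h6 | h6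
        · exact Or.inl (Subtype.ext h6)
        · exact Or.inr (Or.inl (Subtype.ext h6))
        · exact Or.inr (Or.inr (Or.inl (Subtype.ext h6)))
        · exact Or.inr (Or.inr (Or.inr (Subtype.ext h6)))
      · rintro (rfl | rfl | rfl | rfl)
        · rw [one_mul, mul_one]
        · exact hf'.comm.symm
        · rfl
        · rw [hf'.ztt, ← mul_assoc, hf'.comm, hf'.ztt]
    rw [h5, card_fourGroup]

theorem sq_comm_of (u : K) (hu : ∀ r ∈ R, r * u * r⁻¹ = u ∨ r * u * r⁻¹ = z * u) (hzc : ∀ r ∈ R, r * z = z * r)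
    (hz2 : z * z = 1) : ∀ r ∈ R, r * r * u = u * (r * r) := by
  intro r hr
  have h1 : r * r * u * (r * r)⁻¹ = u := by
    have h2 : r * r * u * (r * r)⁻¹ = r * (r * u * r⁻¹) * r⁻¹ := by group
    rw [h2]
    rcases hu r hr with h3 | h3
    · rw [h3, h3]
    · rw [h3]
      have h4 : r * (z * u) * r⁻¹ = (r * z * r⁻¹) * (r * u * r⁻¹) := by group
      rw [h4, h3, hzc r hr, mul_inv_cancel_right, ← mul_assoc, hz2, one_mul]
  exact mul_inv_eq_iff_eq_mul.1 h1


end Hyp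

open Cfsg.Agent.TwoFusion.RankTwoBasic

/-! ### even and odd action on a four-group -/

section parity

variable {K : Type*} [Group K] {z w : K}

theorem mem_of_pow_mem_of_coprime {H : Subgroup K} {n : K} {a b : ℕ} (hab : a.Coprime b) (ha : n ^ a ∈ H)
    (hb : n ^ b ∈ H) : n ∈ H := by
  obtain ⟨u, v, huv⟩ := Nat.isCoprime_iff_coprime.2 hab
  have h1 : n = (n ^ a) ^ u * (n ^ b) ^ v := by
    rw [← zpow_natCast, ← zpow_natCast, ← zpow_mul, ← zpow_mul, ← zpow_add, mul_comm (a : ℤ), mul_comm (b : ℤ), huv,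
      zpow_one]
  rw [h1]
  exact H.mul_mem (H.zpow_mem ha u) (H.zpow_mem hb v)

/-- `n` commutes with all or with none of `z`, `w`, `zw`. -/
def Ev (z w n : K) : Prop :=
  (n * z = z * n ∧ n * w = w * n) ∨ (n * z ≠ z * n ∧ n * w ≠ w * n ∧ n * (z * w) ≠ z * w * n)

theorem ev_of_cases (hf : Four z w) {n : K} (h : (n * z * n⁻¹ = z ∧ n * w * n⁻¹ = w) ∨
    (n * z * n⁻¹ = w ∧ n * w * n⁻¹ = z * w) ∨ (n * z * n⁻¹ = z * w ∧ n * w * n⁻¹ = z)) : Ev z w n := by
  rcases h with ⟨h1, h2⟩ | ⟨h1, h2⟩ | ⟨h1, h2⟩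
  · exact Or.inl ⟨mul_inv_eq_iff_eq_mul.1 h1, mul_inv_eq_iff_eq_mul.1 h2⟩
  · refine Or.inr ⟨fun h3 => ?_, fun h3 => ?_, fun h3 => ?_⟩
    · rw [h3, mul_inv_cancel_right] at h1
      exact hf.ne h1
    · rw [h3, mul_inv_cancel_right] at h2
      exact hf.ztnet h2.symm
    · have h4 := Cfsg.Agent.TwoFusion.RankTwoBasic.conj_mul n z w
      rw [h1, h2, h3, mul_inv_cancel_right, hf.tzt] at h4
      exact hf.ztnez h4
  · refine Or.inr ⟨fun h3 => ?_, fun h3 => ?_, fun h3 => ?_⟩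
    · rw [h3, mul_inv_cancel_right] at h1
      exact hf.ztnez h1.symm
    · rw [h3, mul_inv_cancel_right] at h2
      exact hf.ne h2.symm
    · have h4 := Cfsg.Agent.TwoFusion.RankTwoBasic.conj_mul n z w
      rw [h1, h2, h3, mul_inv_cancel_right, hf.ztz] at h4
      exact hf.ztnet h4

theorem cases_of_ev (hf : Four z w) {n : K} (hp : Pres z w n) (h : Ev z w n) :
    (n * z * n⁻¹ = z ∧ n * w * n⁻¹ = w) ∨
    (n * z * n⁻¹ = w ∧ n * w * n⁻¹ = z * w) ∨ (n * z * n⁻¹ = z * w ∧ n * w * n⁻¹ = z) := by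
  rcases hp.cases hf with ⟨h1, h2⟩ | ⟨h1, h2⟩ | ⟨h1, h2⟩ | ⟨h1, h2⟩ | ⟨h1, h2⟩ | ⟨h1, h2⟩
  · exact Or.inl ⟨h1, h2⟩
  · exfalso
    rcases h with ⟨-, h4⟩ | ⟨h3, -, -⟩
    · rw [h4, mul_inv_cancel_right] at h2
      exact hf.ztnet h2.symm
    · exact h3 (mul_inv_eq_iff_eq_mul.1 h1)
  · exfalso
    rcases h with ⟨h3, -⟩ | ⟨-, -, h5⟩
    · rw [h3, mul_inv_cancel_right] at h1
      exact hf.ne h1
    · apply h5
      apply mul_inv_eq_iff_eq_mul.1
      rw [Cfsg.Agent.TwoFusion.RankTwoBasic.conj_mul, h1, h2, hf.comm]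
  · exact Or.inr (Or.inl ⟨h1, h2⟩)
  · exact Or.inr (Or.inr ⟨h1, h2⟩)
  · exfalso
    rcases h with ⟨h3, -⟩ | ⟨-, h4, -⟩
    · rw [h3, mul_inv_cancel_right] at h1
      exact hf.ztnez h1.symm
    · exact h4 (mul_inv_eq_iff_eq_mul.1 h2)

theorem odd_cases (hf : Four z w) {n : K} (hp : Pres z w n) (h : ¬ Ev z w n) :
    (n * z * n⁻¹ = z ∧ n * w * n⁻¹ = z * w) ∨
    (n * z * n⁻¹ = w ∧ n * w * n⁻¹ = z) ∨ (n * z * n⁻¹ = z * w ∧ n * w * n⁻¹ = w) := by
  rcases hp.cases hf with ⟨h1, h2⟩ | ⟨h1, h2⟩ | ⟨h1, h2⟩ | ⟨h1, h2⟩ | ⟨h1, h2⟩ | ⟨h1, h2⟩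
  · exact absurd (ev_of_cases hf (Or.inl ⟨h1, h2⟩)) h
  · exact Or.inl ⟨h1, h2⟩
  · exact Or.inr (Or.inl ⟨h1, h2⟩)
  · exact absurd (ev_of_cases hf (Or.inr (Or.inl ⟨h1, h2⟩))) h
  · exact absurd (ev_of_cases hf (Or.inr (Or.inr ⟨h1, h2⟩))) h
  · exact Or.inr (Or.inr ⟨h1, h2⟩)

theorem ev_mul (hf : Four z w) {n m : K} (hn : Pres z w n) (hm : Pres z w m) (h1 : Ev z w n) (h2 : Ev z w m) :
    Ev z w (n * m) := by
  apply ev_of_cases hf
  have e1 : n * m * z * (n * m)⁻¹ = n * (m * z * m⁻¹) * n⁻¹ := conj_conj n m z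
  have e2 : n * m * w * (n * m)⁻¹ = n * (m * w * m⁻¹) * n⁻¹ := conj_conj n m w
  have e3 := Cfsg.Agent.TwoFusion.RankTwoBasic.conj_mul n z w
  rw [e1, e2]
  rcases cases_of_ev hf hn h1 with ⟨a1, a2⟩ | ⟨a1, a2⟩ | ⟨a1, a2⟩ <;>
    rcases cases_of_ev hf hm h2 with ⟨b1, b2⟩ | ⟨b1, b2⟩ | ⟨b1, b2⟩ <;> rw [b1, b2] <;> rw [a1, a2] at e3
  · exact Or.inl ⟨a1, a2⟩
  · exact Or.inr (Or.inl ⟨a2, e3⟩)
  · exact Or.inr (Or.inr ⟨e3, a1⟩)
  · exact Or.inr (Or.inl ⟨a1, a2⟩)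
  · rw [hf.tzt] at e3
    exact Or.inr (Or.inr ⟨a2, e3⟩)
  · rw [hf.tzt] at e3
    exact Or.inl ⟨e3, a1⟩
  · exact Or.inr (Or.inr ⟨a1, a2⟩)
  · rw [hf.ztz] at e3
    exact Or.inl ⟨a2, e3⟩
  · rw [hf.ztz] at e3
    exact Or.inr (Or.inl ⟨e3, a1⟩)

theorem comm_inv_iff {n x : K} : n⁻¹ * x = x * n⁻¹ ↔ n * x = x * n := by
  constructor
  · intro h
    have := congrArg (fun y => n * y * n) h
    simp only [mul_assoc, inv_mul_cancel, mul_one, mul_inv_cancel_left] at this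
    exact this.symm
  · intro h
    rw [inv_mul_eq_iff_eq_mul, ← mul_assoc, h, mul_inv_cancel_right]

theorem ev_inv {n : K} (h : Ev z w n) : Ev z w n⁻¹ := by
  rcases h with ⟨h1, h2⟩ | ⟨h1, h2, h3⟩
  · exact Or.inl ⟨comm_inv_iff.2 h1, comm_inv_iff.2 h2⟩
  · exact Or.inr ⟨fun h => h1 (comm_inv_iff.1 h), fun h => h2 (comm_inv_iff.1 h), fun h => h3 (comm_inv_iff.1 h)⟩

theorem comm_conj_iff {g n x : K} : g * n * g⁻¹ * x = x * (g * n * g⁻¹) ↔ n * (g⁻¹ * x * g) = g⁻¹ * x * g * n := by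
  constructor
  · intro h
    have := congrArg (fun y => g⁻¹ * y * g) h
    calc n * (g⁻¹ * x * g) = g⁻¹ * (g * n * g⁻¹ * x) * g := by group
      _ = g⁻¹ * (x * (g * n * g⁻¹)) * g := by rw [h]
      _ = _ := by group
  · intro h
    calc g * n * g⁻¹ * x = g * (n * (g⁻¹ * x * g)) * g⁻¹ := by group
      _ = g * (g⁻¹ * x * g * n) * g⁻¹ := by rw [h]
      _ = _ := by group

theorem ev_conj (hf : Four z w) {g n : K} (hg : Pres z w g⁻¹) (h : Ev z w n) : Ev z w (g * n * g⁻¹) := by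
  have e1 : ∀ x : K, g⁻¹ * x * g⁻¹⁻¹ = g⁻¹ * x * g := fun x => by rw [inv_inv]
  have hc := hg.cases hf
  simp only [e1] at hc
  have e3 := Cfsg.Agent.TwoFusion.RankTwoBasic.conj_mul g⁻¹ z w
  simp only [e1] at e3
  unfold Ev at h ⊢
  have k : ∀ x : K, (g * n * g⁻¹ * x ≠ x * (g * n * g⁻¹)) ↔ (n * (g⁻¹ * x * g) ≠ g⁻¹ * x * g * n) :=
    fun x => not_congr comm_conj_iff
  rw [k, k, k, comm_conj_iff, comm_conj_iff, e3]
  rcases h with ⟨h1, h2⟩ | ⟨h1, h2, h3⟩
  · have h3 : n * (z * w) = z * w * n := by rw [← mul_assoc, h1, mul_assoc, h2, mul_assoc]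
    left
    rcases hc with ⟨c1, c2⟩ | ⟨c1, c2⟩ | ⟨c1, c2⟩ | ⟨c1, c2⟩ | ⟨c1, c2⟩ | ⟨c1, c2⟩ <;> rw [c1, c2]
    · exact ⟨h1, h2⟩
    · exact ⟨h1, h3⟩
    · exact ⟨h2, h1⟩
    · exact ⟨h2, h3⟩
    · exact ⟨h3, h1⟩
    · exact ⟨h3, h2⟩
  · right
    rcases hc with ⟨c1, c2⟩ | ⟨c1, c2⟩ | ⟨c1, c2⟩ | ⟨c1, c2⟩ | ⟨c1, c2⟩ | ⟨c1, c2⟩ <;> rw [c1, c2]
    · exact ⟨h1, h2, h3⟩
    · rw [hf.zzt]
      exact ⟨h1, h3, h2⟩
    · rw [hf.comm]
      exact ⟨h2, h1, h3⟩
    · rw [hf.tzt]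
      exact ⟨h2, h3, h1⟩
    · rw [hf.ztz]
      exact ⟨h3, h1, h2⟩
    · rw [hf.ztt]
      exact ⟨h3, h2, h1⟩

theorem ev_sq (hf : Four z w) {n : K} (hp : Pres z w n) : Ev z w (n * n) := by
  apply ev_of_cases hf
  rw [conj_conj, conj_conj]
  have e3 := Cfsg.Agent.TwoFusion.RankTwoBasic.conj_mul n z w
  rcases hp.cases hf with ⟨a1, a2⟩ | ⟨a1, a2⟩ | ⟨a1, a2⟩ | ⟨a1, a2⟩ | ⟨a1, a2⟩ | ⟨a1, a2⟩ <;>
    rw [a1, a2] at e3
  · exact Or.inl ⟨by rw [a1, a1], by rw [a2, a2]⟩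
  · rw [hf.zzt] at e3
    exact Or.inl ⟨by rw [a1, a1], by rw [a2, e3]⟩
  · exact Or.inl ⟨by rw [a1, a2], by rw [a2, a1]⟩
  · rw [hf.tzt] at e3
    exact Or.inr (Or.inr ⟨by rw [a1, a2], by rw [a2, e3]⟩)
  · rw [hf.ztz] at e3
    exact Or.inr (Or.inl ⟨by rw [a1, e3], by rw [a2, a1]⟩)
  · rw [hf.ztt] at e3
    exact Or.inl ⟨by rw [a1, e3], by rw [a2, a2]⟩

theorem comm_cube (hf : Four z w) {n : K} (hp : Pres z w n) (h : Ev z w n) : n ^ 3 * z = z * n ^ 3 := by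
  have h1 : n ^ 3 = n * n * n := by rw [pow_succ, pow_two]
  rw [h1, ← mul_inv_eq_iff_eq_mul, conj_conj, conj_conj]
  have e3 := Cfsg.Agent.TwoFusion.RankTwoBasic.conj_mul n z w
  rcases cases_of_ev hf hp h with ⟨a1, a2⟩ | ⟨a1, a2⟩ | ⟨a1, a2⟩ <;> rw [a1, a2] at e3
  · rw [a1, a1, a1]
  · rw [hf.tzt] at e3
    rw [a1, a2, e3]
  · rw [hf.ztz] at e3
    rw [a1, e3, a2]

end parity

/-- `{n ∈ N | Ev z w n}` -/
def evSub {K : Type*} [Group K] {z w : K} (hf : Four z w) (N : Subgroup K) (hN : ∀ n ∈ N, Pres z w n) :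
    Subgroup N where
  carrier := {n | Ev z w (n : K)}
  one_mem' := Or.inl ⟨by rw [Subgroup.coe_one, one_mul, mul_one], by rw [Subgroup.coe_one, one_mul, mul_one]⟩
  mul_mem' := fun {a b} ha hb => ev_mul hf (hN a a.2) (hN b b.2) ha hb
  inv_mem' := fun {a} ha => ev_inv ha

theorem evSub_normal {K : Type*} [Group K] {z w : K} (hf : Four z w) (N : Subgroup K)
    (hN : ∀ n ∈ N, Pres z w n) : (evSub hf N hN).Normal :=
  ⟨fun _ hn g => ev_conj hf (hN _ (inv_mem g.2)) hn⟩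

theorem mem_evSub {K : Type*} [Group K] {z w : K} (hf : Four z w) (N : Subgroup K)
    (hN : ∀ n ∈ N, Pres z w n) (n : N) : n ∈ evSub hf N hN ↔ Ev z w (n : K) := Iff.rfl

variable {K : Type*} [Group K] [Finite K] {R X : Subgroup K} {z : K}

theorem eq_one_of_pow {G : Type*} [Group G] {x : G} {a b : ℕ} (hab : a.Coprime b) (ha : x ^ a = 1)
    (hb : x ^ b = 1) : x = 1 := by
  have h1 : orderOf x ∣ 1 := by
    have h2 := Nat.dvd_gcd (orderOf_dvd_of_pow_eq_one ha) (orderOf_dvd_of_pow_eq_one hb)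
    rwa [hab] at h2
  rwa [Nat.dvd_one, orderOf_eq_one_iff] at h1

theorem Hyp.exists_involution (h : Hyp K R X z) {w : K} (hw : w ∈ R) (hwz : w ≠ z)
    (hconj : ∃ g : K, g * z * g⁻¹ = w) (hRw : ∀ r ∈ R, r * w * r⁻¹ = w ∨ r * w * r⁻¹ = z * w) :
    ∃ t ∈ R, t * t = 1 ∧ t * w ≠ w * t := by
  have : Fact (Nat.Prime 2) := ⟨Nat.prime_two⟩
  have : Fact (Nat.Prime 3) := ⟨Nat.prime_three⟩
  have hf := h.four hw hwz hconj
  obtain ⟨⟨s, hsR, hsN, hs⟩, s', hsN', hs'z, hs'w⟩ := h.exists_swaps hw hwz hconj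
  set A : Subgroup K := R ⊓ centralizer ({w} : Set K) with hA
  have hmem : ∀ a, a ∈ A ↔ a ∈ R ∧ a * w = w * a := by
    intro a
    rw [hA, mem_inf, mem_centralizer_singleton_iff]
  have hAp : IsPGroup 2 A := h.syl.two.to_le inf_le_left
  have hwA : w ∈ A := (hmem w).2 ⟨hw, rfl⟩
  have hzA : z ∈ A := (hmem z).2 ⟨h.zR, (h.zc w hw).symm⟩
  have hinv : ∀ a ∈ A, a * a = 1 → a = 1 ∨ a = z ∨ a = w ∨ a = z * w := fun a ha ha2 =>
    h.invol hf ((hmem a).1 ha).1 ((hmem a).1 ha).2 ha2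
  set N : Subgroup K := normalizer (A : Set K) with hN
  have hPres : ∀ n ∈ N, Pres z w n := by
    intro n hn
    constructor
    · rcases hinv _ (conj_mem_of_mem_normalizer hn hzA) (by
        calc n * z * n⁻¹ * (n * z * n⁻¹) = n * (z * z) * n⁻¹ := by group
          _ = 1 := by rw [hf.zz]; group) with h1 | h1
      · exfalso
        rw [mul_inv_eq_one] at h1
        exact hf.z1 (mul_eq_left.1 h1)
      · exact h1
    · rcases hinv _ (conj_mem_of_mem_normalizer hn hwA) (by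
        calc n * w * n⁻¹ * (n * w * n⁻¹) = n * (w * w) * n⁻¹ := by group
          _ = 1 := by rw [hf.tt]; group) with h1 | h1
      · exfalso
        rw [mul_inv_eq_one] at h1
        exact hf.t1 (mul_eq_left.1 h1)
      · exact h1
  have hRN : R ≤ N := by
    intro r hr
    apply mem_normalizer_of_conj_le
    intro a ha
    obtain ⟨haR, haw⟩ := (hmem a).1 ha
    refine (hmem _).2 ⟨mul_mem (mul_mem hr haR) (inv_mem hr), ?_⟩
    have h1 : a * (r⁻¹ * w * r) = r⁻¹ * w * r * a := by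
      have h2 := hRw r⁻¹ (inv_mem hr)
      rw [inv_inv] at h2
      rcases h2 with h3 | h3
      · rw [h3, haw]
      · rw [h3, ← mul_assoc, h.zc a haR, mul_assoc, haw, mul_assoc]
    calc r * a * r⁻¹ * w = r * (a * (r⁻¹ * w * r)) * r⁻¹ := by group
      _ = r * (r⁻¹ * w * r * a) * r⁻¹ := by rw [h1]
      _ = _ := by group
  obtain ⟨n, hnN, hnz, hnw⟩ := exists_three_cycle N hf hPres ⟨s', hsN', by rw [hs'z]; exact hf.ztnez⟩
    ⟨s, hsN, by rw [hs]; exact hf.ztnet⟩ ⟨s, hsN, by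
      have h1 : s * z * s⁻¹ = z := by rw [h.zc s hsR, mul_inv_cancel_right]
      rw [Cfsg.Agent.TwoFusion.RankTwoBasic.conj_mul, h1, hs, hf.zzt]
      exact hf.ztnet.symm⟩
  set M0 : Subgroup N := evSub hf N hPres with hM0
  have hM0n : M0.Normal := evSub_normal hf N hPres
  -- the 3-element `d`
  have hnE : Ev z w n := ev_of_cases hf (Or.inr (Or.inl ⟨hnz, hnw⟩))
  obtain ⟨k, m, hm3, hkm⟩ := Nat.exists_eq_pow_mul_and_not_dvd (orderOf_pos n).ne' 3 (by norm_num)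
  set d : N := ⟨n, hnN⟩ ^ m with hd
  have hdn : (d : K) = n ^ m := rfl
  have hd3 : d ^ 3 ^ k = 1 := by
    apply Subtype.ext
    rw [Subgroup.coe_pow, hdn, ← pow_mul, mul_comm, ← hkm, pow_orderOf_eq_one, Subgroup.coe_one]
  have hdM : d ∈ M0 := pow_mem (show (⟨n, hnN⟩ : N) ∈ M0 from hnE) m
  have hdz : (d : K) * z ≠ z * d := by
    intro h1
    have h2 : n ∈ centralizer ({z} : Set K) := by
      apply mem_of_pow_mem_of_coprime (a := 3) (b := m) ((Nat.Prime.coprime_iff_not_dvd Nat.prime_three).2 hm3)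
      · exact mem_centralizer_singleton_iff.2 (comm_cube hf (hPres n hnN) hnE)
      · exact mem_centralizer_singleton_iff.2 h1
    rw [mem_centralizer_singleton_iff] at h2
    rw [h2, mul_inv_cancel_right] at hnz
    exact hf.ne hnz
  -- `C_A(d) = 1`
  have hCd : ∀ a ∈ A, a * d = d * a → a = 1 := by
    intro a ha had
    by_contra ha1
    obtain ⟨j, hj⟩ := hAp ⟨a, ha⟩
    have hj' : a ^ 2 ^ j = 1 := congrArg Subtype.val hj
    have hex : ∃ i, a ^ 2 ^ i = 1 := ⟨j, hj'⟩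
    classical
    obtain ⟨i, hi, himin⟩ : ∃ i, a ^ 2 ^ i = 1 ∧ ∀ l < i, a ^ 2 ^ l ≠ 1 :=
      ⟨Nat.find hex, Nat.find_spec hex, fun l hl => Nat.find_min hex hl⟩
    have hi0 : i ≠ 0 := by
      rintro rfl
      rw [pow_zero, pow_one] at hi
      exact ha1 hi
    obtain ⟨l, rfl⟩ := Nat.exists_eq_succ_of_ne_zero hi0
    have hv1 := himin l (Nat.lt_succ_self l)
    have hvA : a ^ 2 ^ l ∈ A := pow_mem ha _
    have hvv : a ^ 2 ^ l * a ^ 2 ^ l = 1 := by
      rw [← pow_add, ← two_mul, ← pow_succ']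
      exact hi
    have hvd : (d : K) * a ^ 2 ^ l = a ^ 2 ^ l * d := ((Commute.pow_left (show Commute a (d : K) from had) _).eq).symm
    rcases hdM with ⟨h1, -⟩ | ⟨h1, h2, h3⟩
    · exact hdz h1
    · rcases hinv _ hvA hvv with h4 | h4 | h4 | h4
      · exact hv1 h4
      · rw [h4] at hvd
        exact h1 hvd
      · rw [h4] at hvd
        exact h2 hvd
      · rw [h4] at hvd
        exact h3 hvd
  -- a Sylow 3-subgroup of `M0` containing `d`
  have hdp : IsPGroup 3 (Subgroup.zpowers (⟨d, hdM⟩ : M0)) := by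
    rintro ⟨_, i, rfl⟩
    refine ⟨k, Subtype.ext ?_⟩
    have h1 : (⟨d, hdM⟩ : M0) ^ 3 ^ k = 1 := Subtype.ext hd3
    show ((⟨d, hdM⟩ : M0) ^ i) ^ 3 ^ k = 1
    rw [← zpow_natCast, ← zpow_mul, mul_comm, zpow_mul, zpow_natCast, h1, one_zpow]
  obtain ⟨P, hP⟩ := hdp.exists_le_sylow
  have hdP : (⟨d, hdM⟩ : M0) ∈ (P : Subgroup M0) := hP (Subgroup.mem_zpowers _)
  set P' : Subgroup N := (P : Subgroup M0).map M0.subtype with hP'
  have hdP' : d ∈ P' := ⟨_, hdP, rfl⟩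
  have hP'p : IsPGroup 3 P' := P.isPGroup'.map _
  have hfr : normalizer (P' : Set N) ⊔ M0 = ⊤ := P.normalizer_sup_eq_top
  have hsM : (⟨s, hsN⟩ : N) ∉ M0 := by
    intro h1
    have hsz : s * z = z * s := h.zc s hsR
    rcases h1 with ⟨-, h2⟩ | ⟨h2, -, -⟩
    · rw [mul_inv_eq_iff_eq_mul] at hs
      have h3 : w * s = z * w * s := h2.symm.trans hs
      exact hf.ztnet (mul_right_cancel h3).symm
    · exact h2 hsz
  obtain ⟨m1, hm1N, hm1M⟩ : ∃ m1 ∈ normalizer (P' : Set N), m1 ∉ M0 := by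
    by_contra hcon
    push Not at hcon
    apply hsM
    have h1 : normalizer (P' : Set N) ⊔ M0 ≤ M0 := sup_le hcon le_rfl
    rw [hfr] at h1
    exact h1 (mem_top _)
  obtain ⟨a2, b2, hb2, hab⟩ := Nat.exists_eq_pow_mul_and_not_dvd (orderOf_pos m1).ne' 2 (by norm_num)
  set m2 : N := m1 ^ b2 with hm2
  have hm2N : m2 ∈ normalizer (P' : Set N) := pow_mem hm1N _
  have hm22 : m2 ^ 2 ^ a2 = 1 := by
    rw [hm2, ← pow_mul, mul_comm, ← hab, pow_orderOf_eq_one]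
  have hm2M : m2 ∉ M0 := by
    intro h1
    apply hm1M
    refine mem_of_pow_mem_of_coprime (a := 2) (b := b2) ((Nat.Prime.coprime_iff_not_dvd Nat.prime_two).2 hb2) ?_ h1
    rw [pow_two]
    exact ev_sq hf (hPres _ m1.2)
  set q : N := m2 * m2 with hq
  have hqM : Ev z w (q : K) := ev_sq hf (hPres _ m2.2)
  have hq2 : q ^ 2 ^ a2 = 1 := by
    rw [hq, ← pow_two, ← pow_mul, mul_comm, pow_mul, hm22, one_pow]
  have hqz : (q : K) * z = z * q := by
    have h2 : (q : K) ∈ centralizer ({z} : Set K) := by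
      apply mem_of_pow_mem_of_coprime (a := 3) (b := 2 ^ a2) (Nat.Coprime.pow_right _ (by norm_num))
      · exact mem_centralizer_singleton_iff.2 (comm_cube hf (hPres _ q.2) hqM)
      · have h3 : (q : K) ^ 2 ^ a2 = 1 := congrArg Subtype.val hq2
        rw [h3]
        exact one_mem _
    exact mem_centralizer_singleton_iff.1 h2
  have hqw : (q : K) * w = w * q := by
    rcases hqM with ⟨-, h2⟩ | ⟨h2, -⟩
    · exact h2
    · exact absurd hqz h2
  -- `q ∈ A`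
  have hqA : (q : K) ∈ A := by
    set Nc : Subgroup K := N ⊓ centralizer ({z, w} : Set K) with hNc
    have hNcm : ∀ x, x ∈ Nc ↔ x ∈ N ∧ x * z = z * x ∧ x * w = w * x := by
      intro x
      rw [hNc, mem_inf, mem_centralizer_iff]
      simp only [Set.mem_insert_iff, Set.mem_singleton_iff, forall_eq_or_imp, forall_eq]
      constructor
      · rintro ⟨h1, h2, h3⟩
        exact ⟨h1, h2.symm, h3.symm⟩
      · rintro ⟨h1, h2, h3⟩
        exact ⟨h1, h2.symm, h3.symm⟩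
    have hANc : IsSyl A Nc := by
      have h1 : IsSyl R (R ⊔ Nc) := h.syl.mono le_sup_left le_top
      have h2 : IsSyl (R ⊓ Nc) Nc := by
        apply IsSyl.inf_normal (h.syl.mono hRN le_top) inf_le_left
        intro x hx
        apply mem_normalizer_of_conj_le
        intro y hy
        obtain ⟨hy1, hy2, hy3⟩ := (hNcm y).1 hy
        have key : ∀ v : K, (v = z ∨ v = w ∨ v = z * w) → y * v = v * y := by
          rintro v (rfl | rfl | rfl)
          · exact hy2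
          · exact hy3
          · rw [← mul_assoc, hy2, mul_assoc, hy3, mul_assoc]
        have hxi := hPres _ (inv_mem hx)
        rw [Pres, inv_inv] at hxi
        have k1 := key _ hxi.1
        have k2 := key _ hxi.2
        refine (hNcm _).2 ⟨mul_mem (mul_mem hx hy1) (inv_mem hx), ?_, ?_⟩
        · calc x * y * x⁻¹ * z = x * (y * (x⁻¹ * z * x)) * x⁻¹ := by group
            _ = x * (x⁻¹ * z * x * y) * x⁻¹ := by rw [k1]
            _ = _ := by group
        · calc x * y * x⁻¹ * w = x * (y * (x⁻¹ * w * x)) * x⁻¹ := by group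
            _ = x * (x⁻¹ * w * x * y) * x⁻¹ := by rw [k2]
            _ = _ := by group
      have h3 : R ⊓ Nc = A := by
        ext x
        rw [mem_inf, hNcm, hmem]
        constructor
        · rintro ⟨h4, -, -, h5⟩
          exact ⟨h4, h5⟩
        · rintro ⟨h4, h5⟩
          exact ⟨h4, hRN h4, h.zc x h4, h5⟩
      rwa [h3] at h2
    have hQp : IsPGroup 2 (Subgroup.zpowers (q : K)) := by
      rintro ⟨_, i, rfl⟩
      refine ⟨a2, Subtype.ext ?_⟩
      have h1 : (q : K) ^ 2 ^ a2 = 1 := congrArg Subtype.val hq2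
      show ((q : K) ^ i) ^ 2 ^ a2 = 1
      rw [← zpow_natCast, ← zpow_mul, mul_comm, zpow_mul, zpow_natCast, h1, one_zpow]
    have hqNc : (q : K) ∈ Nc := (hNcm _).2 ⟨q.2, hqz, hqw⟩
    obtain ⟨c, hc, hcq⟩ := hANc.exists_conj hQp (by rwa [Subgroup.zpowers_le])
    have h1 := hcq _ (Subgroup.mem_zpowers _)
    have h2 := conj_inv_mem_of_mem_normalizer (mem_inf.1 hc).1 h1
    have h3 : c⁻¹ * (c * (q : K) * c⁻¹) * c = q := by group
    rwa [h3] at h2
  -- `q` commutes with `d`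
  have hqd : (q : K) * d = d * q := by
    have h1 : q * d * q⁻¹ * d⁻¹ ∈ P' := by
      have hqN : q ∈ normalizer (P' : Set N) := mul_mem hm2N hm2N
      exact mul_mem (conj_mem_of_mem_normalizer hqN hdP') (inv_mem hdP')
    have h2 : ((q * d * q⁻¹ * d⁻¹ : N) : K) ∈ A := by
      have h3 : ((q * d * q⁻¹ * d⁻¹ : N) : K) = (q : K) * ((d : K) * (q : K)⁻¹ * (d : K)⁻¹) := by
        simp only [Subgroup.coe_mul, Subgroup.coe_inv, mul_assoc]
      rw [h3]
      exact mul_mem hqA (conj_mem_of_mem_normalizer d.2 (inv_mem hqA))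
    obtain ⟨i, hi⟩ := hP'p ⟨_, h1⟩
    obtain ⟨j, hj⟩ := hAp ⟨_, h2⟩
    have hi' : ((q * d * q⁻¹ * d⁻¹ : N)) ^ 3 ^ i = 1 := congrArg Subtype.val hi
    have hj' : ((q * d * q⁻¹ * d⁻¹ : N)) ^ 2 ^ j = 1 := by
      apply Subtype.ext
      rw [Subgroup.coe_pow]
      exact congrArg Subtype.val hj
    have h4 : q * d * q⁻¹ * d⁻¹ = 1 := eq_one_of_pow (Nat.Coprime.pow _ _ (by norm_num)) hi' hj'
    rw [mul_inv_eq_one, mul_inv_eq_iff_eq_mul] at h4
    exact congrArg Subtype.val h4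
  have hq1 : (q : K) = 1 := hCd _ hqA hqd
  have hm2p : IsPGroup 2 (Subgroup.zpowers (m2 : K)) := by
    rintro ⟨_, i, rfl⟩
    refine ⟨a2, Subtype.ext ?_⟩
    have h1 : (m2 : K) ^ 2 ^ a2 = 1 := congrArg Subtype.val hm22
    show ((m2 : K) ^ i) ^ 2 ^ a2 = 1
    rw [← zpow_natCast, ← zpow_mul, mul_comm, zpow_mul, zpow_natCast, h1, one_zpow]
  obtain ⟨c, hc, hcm⟩ := (h.syl.mono hRN le_top).exists_conj hm2p (by
    rw [Subgroup.zpowers_le]
    exact m2.2)
  have ht := hcm _ (Subgroup.mem_zpowers _)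
  refine ⟨c * m2 * c⁻¹, ht, ?_, ?_⟩
  · have h1 : (m2 : K) * m2 = 1 := hq1
    calc c * (m2 : K) * c⁻¹ * (c * m2 * c⁻¹) = c * (m2 * m2) * c⁻¹ := by group
      _ = 1 := by rw [h1]; group
  · intro h1
    apply hm2M
    have h2 : Ev z w (c * (m2 : K) * c⁻¹) := Or.inl ⟨h.zc _ ht, h1⟩
    have h3 := ev_conj hf (g := c⁻¹) (by rw [inv_inv]; exact hPres c hc) h2
    have h4 : c⁻¹ * (c * (m2 : K) * c⁻¹) * c⁻¹⁻¹ = m2 := by group
    rwa [h4] at h3

/-- **Main result**: if `z` is not weakly closed in `R`, then `R` is dihedral or quasi-dihedral. -/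
theorem Hyp.main (h : Hyp K R X z) {w₀ : K} (hw₀ : w₀ ∈ R) (hwz₀ : w₀ ≠ z)
    (hconj₀ : ∃ g : K, g * z * g⁻¹ = w₀) :
    (∃ m : ℕ, 2 ≤ m ∧ Nonempty (R ≃* DihedralGroup m)) ∨ Cfsg.IsQuasiDihedral R := by
  have : Fact (Nat.Prime 2) := ⟨Nat.prime_two⟩
  by_contra hcon
  have hsq : ∀ {w : K}, w ∈ R → w ≠ z → (∃ g : K, g * z * g⁻¹ = w) → ∃ y ∈ R, y * y = w := by
    intro w hw hwz hconj
    rcases h.four_or_sq hw hwz hconj with h1 | h1
    · exact absurd (h.concl_of_four hw hwz hconj h1) hcon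
    · exact h1
  have hf₀ := h.four hw₀ hwz₀ hconj₀
  have hfour : ∃ E : Subgroup R, IsKleinFour E := by
    have hf' : Four (⟨z, h.zR⟩ : R) ⟨w₀, hw₀⟩ :=
      { zz := Subtype.ext hf₀.zz
        tt := Subtype.ext hf₀.tt
        comm := Subtype.ext hf₀.comm
        z1 := fun h1 => hf₀.z1 (congrArg Subtype.val h1)
        t1 := fun h1 => hf₀.t1 (congrArg Subtype.val h1)
        ne := fun h1 => hf₀.ne (congrArg Subtype.val h1) }
    refine ⟨fourGroup hf', ⟨card_fourGroup hf', ?_⟩⟩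
    apply Nat.dvd_antisymm
    · apply Monoid.exponent_dvd_of_forall_pow_eq_one
      rintro ⟨a, ha⟩
      apply Subtype.ext
      show a ^ 2 = 1
      rw [pow_two]
      rcases (mem_fourGroup hf').1 ha with rfl | rfl | rfl | rfl
      · exact mul_one 1
      · exact hf'.zz
      · exact hf'.tt
      · exact hf'.ztzt
    · have h1 : orderOf (⟨⟨z, h.zR⟩, (mem_fourGroup hf').2 (Or.inr (Or.inl rfl))⟩ : fourGroup hf') = 2 := by
        apply orderOf_eq_prime
        · apply Subtype.ext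
          rw [pow_two]
          exact hf'.zz
        · intro h2
          exact hf'.z1 (congrArg Subtype.val h2)
      rw [← h1]
      exact Monoid.order_dvd_exponent _
  obtain ⟨E, hEn, hE⟩ : ∃ E : Subgroup R, E.Normal ∧ IsKleinFour E := by
    by_contra hno
    push Not at hno
    exact hcon (Cfsg.Agent.TwoFusion.NoNormalFour.dihedral_or_qd_of_no_normal_four h.syl.two hfour hno)
  obtain ⟨z', u, hz'E, huE, hz'c, hz'1, hu1, huz', -, hconju⟩ :=
    Cfsg.Agent.Involutions.RankThree.four_desc h.syl.two E hE.card_four (fun v hv => by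
      have h1 := hE.exponent_two
      have h2 := Monoid.pow_exponent_eq_one (⟨v, hv⟩ : E)
      rw [h1] at h2
      exact congrArg Subtype.val h2)
  have hE2 : ∀ v ∈ E, v * v = 1 := by
    intro v hv
    have h1 := hE.exponent_two
    have h2 := Monoid.pow_exponent_eq_one (⟨v, hv⟩ : E)
    rw [h1, pow_two] at h2
    exact congrArg Subtype.val h2
  have hz'z : (z' : K) = z := by
    rw [Subgroup.mem_center_iff] at hz'c
    rcases h.uz z' z'.2 (congrArg Subtype.val (hE2 _ hz'E)) (fun r hr => congrArg Subtype.val (hz'c ⟨r, hr⟩))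
      with h1 | h1
    · exact absurd (Subtype.ext h1) hz'1
    · exact h1
  have huR : (u : K) ∈ R := u.2
  have hu2 : (u : K) * u = 1 := congrArg Subtype.val (hE2 _ huE)
  have hu1' : (u : K) ≠ 1 := fun h1 => hu1 (Subtype.ext h1)
  have huz : (u : K) ≠ z := fun h1 => huz' (Subtype.ext (h1.trans hz'z.symm))
  have huc : ∀ r ∈ R, r * (u : K) * r⁻¹ = u ∨ r * (u : K) * r⁻¹ = z * u := by
    intro r hr
    rcases hconju ⟨r, hr⟩ with h1 | h1
    · exact Or.inl (congrArg Subtype.val h1)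
    · right
      have h2 := congrArg Subtype.val h1
      rw [← hz'z]
      exact h2
  have key : ∀ {w : K}, w ∈ R → w ≠ z → (∃ g : K, g * z * g⁻¹ = w) →
      ∀ r ∈ R, r * w * r⁻¹ = w ∨ r * w * r⁻¹ = z * w := by
    intro w hw hwz hconj
    have hf := h.four hw hwz hconj
    obtain ⟨y, hy, hyw⟩ := hsq hw hwz hconj
    have h1 : (u : K) * w = w * u := by
      rw [← hyw]
      exact (sq_comm_of (u : K) huc h.zc h.z2 y hy).symm
    rcases h.invol hf huR h1 hu2 with h2 | h2 | h2 | h2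
    · exact absurd h2 hu1'
    · exact absurd h2 huz
    · rw [← h2]
      exact huc
    · have h3 : w = z * (u : K) := by rw [h2, hf.zzt]
      intro r hr
      have h4 : r * w * r⁻¹ = z * (r * u * r⁻¹) := by
        rw [h3, Cfsg.Agent.TwoFusion.RankTwoBasic.conj_mul, h.zc r hr, mul_inv_cancel_right]
      rcases huc r hr with h5 | h5
      · left
        rw [h4, h5, h3]
      · right
        rw [h4, h5, h3]
  obtain ⟨t, htR, ht2, htw⟩ := h.exists_involution hw₀ hwz₀ hconj₀ (key hw₀ hwz₀ hconj₀)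
  obtain ⟨⟨s, hsR, hsN, hs⟩, -⟩ := h.exists_swaps hw₀ hwz₀ hconj₀
  set A : Subgroup K := R ⊓ centralizer ({w₀} : Set K) with hA
  have hmem : ∀ a, a ∈ A ↔ a ∈ R ∧ a * w₀ = w₀ * a := by
    intro a
    rw [hA, mem_inf, mem_centralizer_singleton_iff]
  have hidx : A.relIndex R = 2 := by
    rw [Subgroup.relIndex_eq_two_iff]
    refine ⟨s, hsR, fun b hb => ?_⟩
    have h1 : b * s * w₀ * (b * s)⁻¹ = z * (b * w₀ * b⁻¹) := by
      rw [conj_conj, hs, Cfsg.Agent.TwoFusion.RankTwoBasic.conj_mul, h.zc b hb, mul_inv_cancel_right]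
    rcases key hw₀ hwz₀ hconj₀ b hb with h2 | h2
    · right
      refine ⟨(hmem b).2 ⟨hb, mul_inv_eq_iff_eq_mul.1 h2⟩, fun h3 => ?_⟩
      have h4 := ((hmem _).1 h3).2
      rw [← mul_inv_eq_iff_eq_mul, h1, h2] at h4
      exact hf₀.ztnet h4
    · left
      refine ⟨(hmem _).2 ⟨mul_mem hb hsR, ?_⟩, fun h3 => ?_⟩
      · rw [← mul_inv_eq_iff_eq_mul, h1, h2, hf₀.zzt]
      · have h4 := ((hmem _).1 h3).2
        rw [← mul_inv_eq_iff_eq_mul, h2] at h4
        exact hf₀.ztnet h4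
  obtain ⟨P, hP⟩ := h.syl.exists_sylow
  obtain ⟨g, hg⟩ := Cfsg.Agent.Transfer.ThompsonTransfer.exists_conj_mem_of_pResidual_eq_top h.res P A
    (by rw [hP]; exact inf_le_left) (by rw [hP]; exact hidx) t (by rw [pow_two]; exact ht2)
  -- `t` is conjugate to `z`
  have ht1 : t ≠ 1 := by
    rintro rfl
    exact htw (by rw [one_mul, mul_one])
  have htz : ∃ g : K, g * z * g⁻¹ = t := by
    obtain ⟨hg1, hg2⟩ := (hmem _).1 hg
    have hcw : ∀ {x y : K}, (∃ g : K, g * x * g⁻¹ = y) → (∃ g : K, g * z * g⁻¹ = x) → ∃ g : K, g * z * g⁻¹ = y := by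
      rintro x y ⟨a, rfl⟩ ⟨b, rfl⟩
      exact ⟨a * b, conj_conj a b z⟩
    apply hcw (x := g * t * g⁻¹) ⟨g⁻¹, by group⟩
    rcases h.invol hf₀ hg1 hg2 (by
        calc g * t * g⁻¹ * (g * t * g⁻¹) = g * (t * t) * g⁻¹ := by group
          _ = 1 := by rw [ht2]; group) with h1 | h1 | h1 | h1
    · exfalso
      rw [mul_inv_eq_one] at h1
      exact ht1 (mul_eq_left.1 h1)
    · rw [h1]
      exact ⟨1, by group⟩
    · rw [h1]
      exact hconj₀
    · rw [h1]
      exact hcw ⟨s, hs⟩ hconj₀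
  have htz' : t ≠ z := by
    rintro rfl
    exact htw (h.zc w₀ hw₀).symm
  obtain ⟨y, hy, hyt⟩ := hsq htR htz' htz
  apply htw
  rw [← hyt, ← mul_inv_eq_iff_eq_mul, conj_conj]
  have h1 := key hw₀ hwz₀ hconj₀ y hy
  rcases h1 with h2 | h2
  · rw [h2, h2]
  · rw [h2, Cfsg.Agent.TwoFusion.RankTwoBasic.conj_mul, h2, h.zc y hy, mul_inv_cancel_right, hf₀.zzt]

end Cfsg.Agent.H444.RankTwoMain
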