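import Mathlib
import Cfsg.Agent.H444.ZCChar
import Cfsg.Agent.S0107
import Cfsg.Agent.Transfer.Residual
import Cfsg.Agent.TwoFusion.OneClass
import Cfsg.Agent.SignalizersComponents.SolvableFunctor

/-!
# ZC-groups: the last case of 2-rank two
-/

set_option autoImplicit false
set_option linter.unusedSectionVars false

namespace Cfsg.Agent.H444.ZNSit

open Subgroup Cfsg Cfsg.Agent.StdEven.Syl Cfsg.Agent.TwoFusion.RankTwoBasic
open Cfsg.Agent.H444.RankTwoMain.Hyp (fourGroup mem_fourGroup card_fourGroup)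

variable {G : Type*} [Group G] [Finite G] {S H : Subgroup G}

/-! ### the signalizer functor `a ↦ O(C(a))` -/

/-- `O(C(a))` -/
def th (a : G) : Subgroup G := oc (centralizer ({a} : Set G))

theorem th_le {a x : G} (hx : x ∈ th a) : x * a = a * x := mem_centralizer_singleton_iff.1 (oc_le _ hx)

/-- `O(C(a))` is mapped to `O(C(gag⁻¹))` by conjugation. -/
theorem conj_mem_th {a g x : G} (hx : x ∈ th a) : g * x * g⁻¹ ∈ th (g * a * g⁻¹) := by
  have h1 : (th a).map (MulAut.conj g).toMonoidHom ≤ th (g * a * g⁻¹) := by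
    apply le_oc
    · rintro _ ⟨y, hy, rfl⟩
      rw [mem_centralizer_singleton_iff]
      show g * y * g⁻¹ * (g * a * g⁻¹) = g * a * g⁻¹ * (g * y * g⁻¹)
      calc g * y * g⁻¹ * (g * a * g⁻¹) = g * (y * a) * g⁻¹ := by group
        _ = g * (a * y) * g⁻¹ := by rw [th_le hy]
        _ = _ := by group
    · intro c hc y hy
      rw [mem_centralizer_singleton_iff] at hc
      rw [mem_map_conj] at hy ⊢
      have h2 : g⁻¹ * c * g ∈ centralizer ({a} : Set G) := by
        rw [mem_centralizer_singleton_iff]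
        calc g⁻¹ * c * g * a = g⁻¹ * (c * (g * a * g⁻¹)) * g := by group
          _ = g⁻¹ * (g * a * g⁻¹ * c) * g := by rw [hc]
          _ = _ := by group
      have h3 := conj_mem_oc' h2 hy
      have h4 : g⁻¹ * c * g * (g⁻¹ * y * g) * (g⁻¹ * c * g)⁻¹ = g⁻¹ * (c * y * c⁻¹) * g := by group
      rw [h4] at h3
      exact h3
    · rw [← Nat.card_congr ((th a).equivMapOfInjective _ (MulAut.conj g).injective).toEquiv]
      exact oc_odd _
  exact h1 (conj_mem_map g hx)

theorem sigf (hs : ∀ t : G, t * t = 1 → t ≠ 1 → Group.IsSolvable (centralizer ({t} : Set G))) {A : Subgroup G}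
    (hA : IsElementaryAbelian 2 A) : IsSolvableSignalizerFunctor 2 A (th (G := G)) := by
  have hcomm : ∀ a ∈ A, ∀ b ∈ A, a * b = b * a := by
    intro a ha b hb
    exact congrArg Subtype.val (hA.1.is_comm.comm (⟨a, ha⟩ : A) ⟨b, hb⟩)
  have hsq : ∀ a ∈ A, a * a = 1 := fun a ha => by rw [← pow_two]; exact hA.2 a ha
  refine ⟨⟨fun a _ _ => oc_le _, fun a _ _ h2 => ?_, fun a ha _ b hb x hx => ?_, fun a ha ha1 b hb hb1 => ?_⟩,
    fun a ha ha1 => isSolvable_of_le (oc_le _) (hs a (hsq a ha) ha1)⟩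
  · exact (Nat.not_even_iff_odd.2 (oc_odd _)) (even_iff_two_dvd.2 h2)
  · exact conj_mem_oc' (mem_centralizer_singleton_iff.2 (hcomm b hb a ha)) hx
  · apply balance (hs b (hsq b hb) hb1) (hsq a ha) (mem_centralizer_singleton_iff.2 (hcomm a ha b hb)) inf_le_right
    · intro w hw
      exact th_le (mem_inf.1 hw).1
    · intro g hg hga w hw
      exact mem_inf.2 ⟨conj_mem_oc' (mem_centralizer_singleton_iff.2 hga) (mem_inf.1 hw).1,
        mul_mem (mul_mem hg (mem_inf.1 hw).2) (inv_mem hg)⟩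
    · exact Odd.of_dvd_nat (oc_odd _) (Subgroup.card_dvd_of_le inf_le_left)

/-- the closure of the functor on a subset -/
def Th (A : Subgroup G) : Subgroup G := ⨆ a : {a : G // a ∈ A ∧ a ≠ 1}, th (a : G)

theorem th_le_Th {A : Subgroup G} {a : G} (ha : a ∈ A) (ha1 : a ≠ 1) : th a ≤ Th A :=
  le_iSup (fun a : {a : G // a ∈ A ∧ a ≠ 1} => th (a : G)) ⟨a, ha, ha1⟩

theorem Th_mono {A B : Subgroup G} (h : A ≤ B) : Th A ≤ Th B :=
  iSup_le fun a => th_le_Th (h a.2.1) a.2.2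

theorem Th_conj {A : Subgroup G} {g : G} (hg : ∀ a ∈ A, g * a * g⁻¹ ∈ A) {x : G} (hx : x ∈ Th A) :
    g * x * g⁻¹ ∈ Th A := by
  have h1 : Th A ≤ (Th A).comap (MulAut.conj g).toMonoidHom := by
    refine iSup_le fun a x hx => ?_
    exact th_le_Th (hg a a.2.1) (conj_ne_one g a.2.2) (conj_mem_th hx)
  exact h1 hx

/-- The functor on a subgroup of order at least 8. -/
theorem Th_odd (hs : ∀ t : G, t * t = 1 → t ≠ 1 → Group.IsSolvable (centralizer ({t} : Set G))) {A : Subgroup G}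
    (hA : IsElementaryAbelian 2 A) (hA3 : 2 ^ 3 ≤ Nat.card A) :
    Odd (Nat.card (Th A)) ∧ ∀ a ∈ A, a ≠ 1 → Th A ⊓ centralizer {a} = th a := by
  have : Fact (Nat.Prime 2) := ⟨Nat.prime_two⟩
  obtain ⟨h1, h2⟩ := Cfsg.Agent.SignalizersComponents.SolvableFunctor.closure_mem hA hA3 (sigf hs hA)
  refine ⟨?_, h2⟩
  rw [← Nat.not_even_iff_odd, even_iff_two_dvd]
  exact h1.2.1

theorem Th_eq (hs : ∀ t : G, t * t = 1 → t ≠ 1 → Group.IsSolvable (centralizer ({t} : Set G))) {A : Subgroup G}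
    (hA : IsElementaryAbelian 2 A) (hA3 : 2 ^ 3 ≤ Nat.card A) {x y : G} (hf : Four x y) (hle : fourGroup hf ≤ A) :
    Th (fourGroup hf) = Th A := by
  have : Fact (Nat.Prime 2) := ⟨Nat.prime_two⟩
  obtain ⟨hodd, hc⟩ := Th_odd hs hA hA3
  apply le_antisymm (Th_mono hle)
  have h1 := Cfsg.Agent.SignalizersComponents.CoprimeGen.le_iSup_centralizer_ne_one (p := 2) (Z := Th A) (four_elem hf)
    (by rw [card_fourGroup hf]; norm_num) (fun h2 => (Nat.not_even_iff_odd.2 hodd) (even_iff_two_dvd.2 h2))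
    (fun a ha => mem_normalizer_of_conj_le (fun v hv => Th_conj (fun b hb => by
      have h2 : a * b = b * a := congrArg Subtype.val (hA.1.is_comm.comm (⟨a, hle ha⟩ : A) ⟨b, hb⟩)
      rw [h2, mul_inv_cancel_right]
      exact hb) hv))
  refine h1.trans (iSup_le fun a => ?_)
  rw [hc a (hle a.2.1) a.2.2]
  exact th_le_Th a.2.1 a.2.2

namespace Sit

/-- A criterion for strong embedding. -/
theorem se_of (h : Sit G S H) {M : Subgroup G} (hRM : S ⊓ H ≤ M)
    (hC : ∀ t ∈ S ⊓ H, t * t = 1 → t ≠ 1 → ∀ g ∈ H, g * t = t * g → g ∈ M)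
    (hN : ∀ g ∈ H, g ∈ normalizer ((S ⊓ H : Subgroup G) : Set G) → g ∈ M) (hM : ¬ H ≤ M) :
    ∃ M : Subgroup H, IsStronglyEmbedded M := by
  have : Fact (Nat.Prime 2) := ⟨Nat.prime_two⟩
  obtain ⟨z, hz, hzH, hz1⟩ := h.exists_z
  have hzR : z ∈ S ⊓ H := mem_inf.2 ⟨hz.1, hzH⟩
  have hsyl : IsSyl (S ⊓ H) (M ⊓ H) := h.sylH.mono (le_inf hRM inf_le_right) inf_le_right
  have hCM : ∀ v ∈ M ⊓ H, v * v = 1 → v ≠ 1 → ∃ c ∈ M ⊓ H, c * v * c⁻¹ ∈ S ⊓ H ∧
      ∀ g ∈ H, g * v = v * g → g ∈ M := by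
    intro v hv hv2 hv1
    obtain ⟨c, hc, hcv⟩ := hsyl.exists_conj (isPGroup_zpowers hv2) (by rwa [Subgroup.zpowers_le])
    have h1 := hcv v (Subgroup.mem_zpowers v)
    refine ⟨c, hc, h1, fun g hg hgv => ?_⟩
    have h2 := hC _ h1 (conj_sq c hv2) (conj_ne_one c hv1) (c * g * c⁻¹) (h.Hn c g hg) (by
      calc c * g * c⁻¹ * (c * v * c⁻¹) = c * (g * v) * c⁻¹ := by group
        _ = c * (v * g) * c⁻¹ := by rw [hgv]
        _ = _ := by group)
    have h3 := mul_mem (mul_mem (inv_mem (mem_inf.1 hc).1) h2) (mem_inf.1 hc).1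
    have h4 : c⁻¹ * (c * g * c⁻¹) * c = g := by group
    rwa [h4] at h3
  refine ⟨M.subgroupOf H, ?_, ?_, ?_⟩
  · rw [Ne, Subgroup.subgroupOf_eq_top]
    exact hM
  · have h1 : orderOf (⟨⟨z, hzH⟩, mem_subgroupOf.2 (hRM hzR)⟩ : M.subgroupOf H) = 2 := by
      apply orderOf_eq_prime
      · apply Subtype.ext
        apply Subtype.ext
        rw [pow_two]
        exact hz.2.1
      · intro h2
        exact hz1 (congrArg Subtype.val (congrArg Subtype.val h2))
    rw [even_iff_two_dvd, ← h1]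
    exact _root_.orderOf_dvd_natCard _
  · intro g hg
    by_contra hcon
    rw [Nat.not_odd_iff_even, even_iff_two_dvd] at hcon
    obtain ⟨⟨u, hu⟩, hu2⟩ := exists_prime_orderOf_dvd_card' 2 hcon
    rw [Subgroup.orderOf_mk] at hu2
    obtain ⟨huM, huM'⟩ := mem_inf.1 hu
    rw [mem_map_conj] at huM'
    rw [mem_subgroupOf] at huM huM'
    have huu : u * u = 1 := by rw [← pow_two, ← hu2, pow_orderOf_eq_one]
    have huu' : (u : G) * u = 1 := congrArg Subtype.val huu
    have hu1 : (u : G) ≠ 1 := by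
      intro h1
      have h2 : u = 1 := Subtype.ext h1
      rw [h2, orderOf_one] at hu2
      norm_num at hu2
    obtain ⟨c, hc, hcu, -⟩ := hCM u (mem_inf.2 ⟨huM, u.2⟩) huu' hu1
    obtain ⟨hcM, hcH⟩ := mem_inf.1 hc
    -- `v = g⁻¹ u g ∈ M`
    set v : G := (g : G)⁻¹ * u * g with hv
    have hvv : v * v = 1 := by
      have h1 := conj_sq (g : G)⁻¹ huu'
      rwa [inv_inv] at h1
    have hv1 : v ≠ 1 := by
      have h1 := conj_ne_one (g : G)⁻¹ hu1
      rwa [inv_inv] at h1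
    have hvH : v ∈ H := mul_mem (mul_mem (inv_mem g.2) u.2) g.2
    obtain ⟨-, -, -, hvC⟩ := hCM v (mem_inf.2 ⟨huM', hvH⟩) hvv hv1
    -- `z₁ = c⁻¹ z c`
    set z₁ : G := c⁻¹ * z * c with hz₁
    have hz₁H : z₁ ∈ H := mul_mem (mul_mem (inv_mem hcH) hzH) hcH
    have hz₁u : z₁ * u = u * z₁ := by
      have h1 := hz.2.2 _ (mem_inf.1 hcu).1
      calc z₁ * u = c⁻¹ * (z * (c * u * c⁻¹)) * c := by rw [hz₁]; group
        _ = c⁻¹ * (c * u * c⁻¹ * z) * c := by rw [h1]
        _ = u * z₁ := by rw [hz₁]; group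
    -- `w = g⁻¹ z₁ g ∈ M`
    set w : G := (g : G)⁻¹ * z₁ * g with hw
    have hwH : w ∈ H := mul_mem (mul_mem (inv_mem g.2) hz₁H) g.2
    have hwM : w ∈ M := by
      apply hvC w hwH
      calc w * v = (g : G)⁻¹ * (z₁ * u) * g := by rw [hw, hv]; group
        _ = (g : G)⁻¹ * (u * z₁) * g := by rw [hz₁u]
        _ = v * w := by rw [hw, hv]; group
    have hz₁1 : z₁ ≠ 1 := by
      have h1 := conj_ne_one c⁻¹ hz1
      rwa [inv_inv] at h1
    have hz₁2 : z₁ * z₁ = 1 := by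
      have h1 := conj_sq c⁻¹ hz.2.1
      rwa [inv_inv] at h1
    have hw1 : w ≠ 1 := by
      have h1 := conj_ne_one (g : G)⁻¹ hz₁1
      rwa [inv_inv] at h1
    have hw2 : w * w = 1 := by
      have h1 := conj_sq (g : G)⁻¹ hz₁2
      rwa [inv_inv] at h1
    obtain ⟨-, -, -, hwC⟩ := hCM w (mem_inf.2 ⟨hwM, hwH⟩) hw2 hw1
    -- `q = c g`, `q⁻¹ R q ≤ M ∩ H`
    set q : G := c * g with hq
    have hqR : (S ⊓ H).map (MulAut.conj q⁻¹).toMonoidHom ≤ M ⊓ H := by
      rintro _ ⟨r, hr, rfl⟩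
      have hH : q⁻¹ * r * q⁻¹⁻¹ ∈ H := h.Hn _ r (mem_inf.1 hr).2
      refine mem_inf.2 ⟨hwC _ hH ?_, hH⟩
      have h1 := hz.2.2 r (mem_inf.1 hr).1
      calc q⁻¹ * r * q⁻¹⁻¹ * w = q⁻¹ * (r * z) * q := by rw [hw, hz₁, hq]; group
        _ = q⁻¹ * (z * r) * q := by rw [h1]
        _ = w * (q⁻¹ * r * q⁻¹⁻¹) := by rw [hw, hz₁, hq]; group
    obtain ⟨m, hm, hmR⟩ := hsyl.exists_conj (isPGroup_map h.sylH.two _) hqR
    have h1 : m * q⁻¹ ∈ normalizer ((S ⊓ H : Subgroup G) : Set G) := by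
      apply mem_normalizer_of_conj_le
      intro r hr
      have h2 := hmR _ (conj_mem_map q⁻¹ hr)
      have h3 : m * (q⁻¹ * r * q⁻¹⁻¹) * m⁻¹ = m * q⁻¹ * r * (m * q⁻¹)⁻¹ := by group
      rwa [h3] at h2
    have hqH : q ∈ H := mul_mem hcH g.2
    have h2 := hN (m * q⁻¹) (mul_mem (mem_inf.1 hm).2 (inv_mem hqH)) h1
    apply hg
    rw [mem_subgroupOf]
    have h3 : (g : G) = c⁻¹ * ((m * q⁻¹)⁻¹ * m) := by rw [hq]; group
    rw [h3]
    exact mul_mem (inv_mem hcM) (mul_mem (inv_mem h2) (mem_inf.1 hm).1)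

/-- A nontrivial odd order subgroup is not normalized by `H`. -/
theorem not_le_norm (h : Sit G S H) {Y : Subgroup G} (hodd : Odd (Nat.card Y)) (hY : Y ≠ ⊥) :
    ¬ H ≤ normalizer (Y : Set G) := by
  intro hle
  have h1 : Y ≤ oc H := le_oc (h.le_of_odd hodd) (fun c hc y hy => conj_mem_of_mem_normalizer (hle hc) hy) hodd
  have hn : (oc H).Normal := ⟨fun x hx g => conj_mem_oc (mem_normalizer_of_conj_le (h.Hn g)) hx⟩
  rw [h.O1 _ hn (oc_odd H)] at h1
  exact hY (le_bot_iff.1 h1)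

theorem ev_of_invol {x : G} (hx2 : x * x = 1) (hx1 : x ≠ 1) : orderOf x = 2 :=
  orderOf_eq_prime (by rw [pow_two]; exact hx2) hx1

theorem index_ne_two {K : Type*} [Group K] [Finite K] (h : pResidual 2 K = ⊤) (N : Subgroup K) : N.index ≠ 2 := by
  have : Fact (Nat.Prime 2) := ⟨Nat.prime_two⟩
  intro hi
  have hN : N.Normal := Subgroup.normal_of_index_eq_two hi
  have h1 : pResidual 2 K ≤ N := Cfsg.Agent.Transfer.Residual.pResidual_le_of_isPGroup_quotient (by
    apply IsPGroup.of_card (n := 1)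
    rw [pow_one, ← hi]
    rfl)
  rw [h, top_le_iff] at h1
  rw [h1, Subgroup.index_top] at hi
  norm_num at hi

/-- In case B all involutions of `H` are conjugate. -/
theorem one_class (h : Sit G S H) (hr : PRankLE 2 2 H) (hres : pResidual 2 H = ⊤) {z : G} (hz : InZ S z) (hz1 : z ≠ 1)
    (hzH : z ∈ H) (hu : ∀ x, InZ S x → x ∈ H → x = 1 ∨ x = z)
    (huR : ∀ y ∈ S ⊓ H, y * y = 1 → (∀ r ∈ S ⊓ H, r * y = y * r) → y = 1 ∨ y = z) {k : G} (hk : k ∈ H)
    (hkS : k * z * k⁻¹ ∈ S) (hkz : k * z * k⁻¹ ≠ z) {t : G} (htH : t ∈ H) (ht2 : t * t = 1) (ht1 : t ≠ 1) :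
    ∃ g ∈ H, g * z * g⁻¹ = t := by
  have : Fact (Nat.Prime 2) := ⟨Nat.prime_two⟩
  have ho1 : orderOf (⟨z, hzH⟩ : H) = 2 := by
    rw [Subgroup.orderOf_mk]
    exact ev_of_invol hz.2.1 hz1
  have ho2 : orderOf (⟨t, htH⟩ : H) = 2 := by
    rw [Subgroup.orderOf_mk]
    exact ev_of_invol ht2 ht1
  have key : ∃ g : H, g * ⟨z, hzH⟩ * g⁻¹ = ⟨t, htH⟩ := by
    rcases h.case_B hr hres hz hz1 hzH hu huR hk hkS hkz with ⟨m, hm, ⟨e⟩⟩ | hqd
    · -- dihedral
      have hkR : k * z * k⁻¹ ∈ S ⊓ H := mem_inf.2 ⟨hkS, h.Hn k z hzH⟩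
      have hp : IsPGroup 2 (DihedralGroup m) := h.sylH.toSylow.isPGroup'.of_equiv e
      have : NeZero m := ⟨by omega⟩
      have hfin : Finite (DihedralGroup m) := Finite.of_equiv _ e.toEquiv
      obtain ⟨j, hj⟩ := (IsPGroup.iff_card (p := 2)).1 hp
      rw [DihedralGroup.nat_card] at hj
      obtain ⟨i, rfl⟩ : ∃ i, j = i + 1 := Nat.exists_eq_succ_of_ne_zero (by rintro rfl; omega)
      have hmi : m = 2 ^ i := by
        rw [pow_succ] at hj
        omega
      have hi : 2 ≤ i := by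
        by_contra hlt
        have hi2 : i = 1 := by
          interval_cases i
          · omega
          · rfl
        rw [hi2, pow_one] at hmi
        subst hmi
        have hcomm : ∀ a b : DihedralGroup 2, a * b = b * a := by decide
        rcases huR _ hkR (conj_sq k hz.2.1) (fun r hr' => by
          have h1 := hcomm (e ⟨⟨r, (mem_inf.1 hr').2⟩, mem_subgroupOf.2 hr'⟩)
            (e ⟨⟨k * z * k⁻¹, (mem_inf.1 hkR).2⟩, mem_subgroupOf.2 hkR⟩)
          rw [← map_mul, ← map_mul] at h1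
          exact congrArg Subtype.val (congrArg Subtype.val (e.injective h1))) with h1 | h1
        · exact conj_ne_one k hz1 h1
        · exact hkz h1
      exact Cfsg.Agent.S0107.result h.sylH.toSylow i hi ⟨hmi ▸ e⟩ hres _ _ ho1 ho2
    · have h1 := Cfsg.Agent.TwoFusion.OneClass.isConj_of_orderOf_two h.sylH.toSylow (Or.inl hqd)
        (fun N => index_ne_two hres N) _ _ ho1 ho2
      obtain ⟨c, hc⟩ := isConj_iff.1 h1
      exact ⟨c, hc⟩
  obtain ⟨g, hg⟩ := key
  exact ⟨g, g.2, congrArg Subtype.val hg⟩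

/-- The 3-cycles on `{z, t, zt}`. -/
theorem cycle (h : Sit G S H) (hr : PRankLE 2 2 H) (hres : pResidual 2 H = ⊤) {z : G} (hz : InZ S z) (hz1 : z ≠ 1)
    (hzH : z ∈ H) (hu : ∀ x, InZ S x → x ∈ H → x = 1 ∨ x = z)
    (huR : ∀ y ∈ S ⊓ H, y * y = 1 → (∀ r ∈ S ⊓ H, r * y = y * r) → y = 1 ∨ y = z) {k : G} (hk : k ∈ H)
    (hkS : k * z * k⁻¹ ∈ S) (hkz : k * z * k⁻¹ ≠ z) {t : G} (htR : t ∈ S ⊓ H) (ht2 : t * t = 1) (ht1 : t ≠ 1)
    (htz : t ≠ z) : ∃ n ∈ H, n * z * n⁻¹ = t ∧ n * t * n⁻¹ = z * t := by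
  obtain ⟨g, hg, hgt⟩ := h.one_class hr hres hz hz1 hzH hu huR hk hkS hkz (mem_inf.1 htR).2 ht2 ht1
  have hyp := h.hyp_B hr hres hz hz1 hzH hu huR
  obtain ⟨⟨s, hsR, -, hs⟩, s', -, hs'z, hs'w⟩ := hyp.exists_swaps (w := ⟨t, (mem_inf.1 htR).2⟩)
    (mem_subgroupOf.2 htR) (fun h1 => htz (congrArg Subtype.val h1)) ⟨⟨g, hg⟩, Subtype.ext hgt⟩
  have e1 : (s : G) * t * (s : G)⁻¹ = z * t := congrArg Subtype.val hs
  have e2 : (s' : G) * z * (s' : G)⁻¹ = z * t := congrArg Subtype.val hs'z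
  have e3 : (s' : G) * t * (s' : G)⁻¹ = t := congrArg Subtype.val hs'w
  have e4 : (s : G) * z * (s : G)⁻¹ = z := by
    rw [hz.2.2 _ (mem_inf.1 (mem_subgroupOf.1 hsR)).1, mul_inv_cancel_right]
  refine ⟨s * s', mul_mem s.2 s'.2, ?_, ?_⟩
  · rw [conj_conj, e2, Cfsg.Agent.TwoFusion.RankTwoBasic.conj_mul, e4, e1, ← mul_assoc, hz.2.1, one_mul]
  · rw [conj_conj, e3, e1]

/-- The common end of the proof. -/
theorem se_end (h : Sit G S H) (hr : PRankLE 2 2 H) (hres : pResidual 2 H = ⊤) {z : G} (hz : InZ S z) (hz1 : z ≠ 1)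
    (hzH : z ∈ H) (hu : ∀ x, InZ S x → x ∈ H → x = 1 ∨ x = z)
    (huR : ∀ y ∈ S ⊓ H, y * y = 1 → (∀ r ∈ S ⊓ H, r * y = y * r) → y = 1 ∨ y = z) {k : G} (hk : k ∈ H)
    (hkS : k * z * k⁻¹ ∈ S) (hkz : k * z * k⁻¹ ≠ z) {Y : Subgroup G} (hodd : Odd (Nat.card Y)) (hY1 : Y ≠ ⊥)
    (h1 : ∀ g, g * z = z * g → g ∈ normalizer (Y : Set G))
    (h2 : ∀ t ∈ S ⊓ H, t * t = 1 → t ≠ 1 → t ≠ z → ∀ n ∈ H, n * z * n⁻¹ = t → n * t * n⁻¹ = z * t →
      n ∈ normalizer (Y : Set G)) : ∃ M : Subgroup H, IsStronglyEmbedded M := by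
  have hzR : z ∈ S ⊓ H := mem_inf.2 ⟨hz.1, hzH⟩
  refine h.se_of (M := normalizer (Y : Set G)) (fun r hr' => h1 r (hz.2.2 r (mem_inf.1 hr').1)) ?_ ?_
    (h.not_le_norm hodd hY1)
  · intro t htR ht2 ht1 g hg hgt
    by_cases htz : t = z
    · rw [htz] at hgt
      exact h1 g hgt
    · obtain ⟨n, hn, hnz, hnt⟩ := h.cycle hr hres hz hz1 hzH hu huR hk hkS hkz htR ht2 ht1 htz
      have hnN := h2 t htR ht2 ht1 htz n hn hnz hnt
      have h3 : n⁻¹ * g * n ∈ normalizer (Y : Set G) := by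
        apply h1
        calc n⁻¹ * g * n * z = n⁻¹ * (g * (n * z * n⁻¹)) * n := by group
          _ = n⁻¹ * (t * g) * n := by rw [hnz, hgt]
          _ = n⁻¹ * (n * z * n⁻¹ * g) * n := by rw [hnz]
          _ = _ := by group
      have h4 := mul_mem (mul_mem hnN h3) (inv_mem hnN)
      have h5 : n * (n⁻¹ * g * n) * n⁻¹ = g := by group
      rwa [h5] at h4
  · intro g hg hgN
    apply h1
    have h3 : g * z * g⁻¹ = 1 ∨ g * z * g⁻¹ = z := by
      apply huR _ (conj_mem_of_mem_normalizer hgN hzR) (conj_sq g hz.2.1)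
      intro r hr'
      have h4 := hz.2.2 _ (mem_inf.1 (conj_inv_mem_of_mem_normalizer hgN hr')).1
      calc r * (g * z * g⁻¹) = g * (g⁻¹ * r * g * z) * g⁻¹ := by group
        _ = g * (z * (g⁻¹ * r * g)) * g⁻¹ := by rw [h4]
        _ = _ := by group
    rcases h3 with h3 | h3
    · exact absurd h3 (conj_ne_one g hz1)
    · exact mul_inv_eq_iff_eq_mul.1 h3

/-- elements permuting `z ↦ t ↦ zt` normalize the four-group -/
theorem cycle_norm {z t n : G} (hf : Four z t) (hnz : n * z * n⁻¹ = t) (hnt : n * t * n⁻¹ = z * t) :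
    ∀ a ∈ fourGroup hf, n * a * n⁻¹ ∈ fourGroup hf := by
  intro a ha
  rcases (mem_fourGroup hf).1 ha with rfl | rfl | rfl | rfl
  · rw [mul_one, mul_inv_cancel]
    exact one_mem _
  · rw [hnz]
    exact (mem_fourGroup hf).2 (Or.inr (Or.inr (Or.inl rfl)))
  · rw [hnt]
    exact (mem_fourGroup hf).2 (Or.inr (Or.inr (Or.inr rfl)))
  · rw [Cfsg.Agent.TwoFusion.RankTwoBasic.conj_mul, hnz, hnt, hf.tzt]
    exact (mem_fourGroup hf).2 (Or.inr (Or.inl rfl))

/-- Case B: strongly embedded or `O(C(z)) = 1`. -/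
theorem case_B_core (h : Sit G S H) (hr : PRankLE 2 2 H) (hres : pResidual 2 H = ⊤) {z : G} (hz : InZ S z)
    (hz1 : z ≠ 1) (hzH : z ∈ H) (hu : ∀ x, InZ S x → x ∈ H → x = 1 ∨ x = z)
    (huR : ∀ y ∈ S ⊓ H, y * y = 1 → (∀ r ∈ S ⊓ H, r * y = y * r) → y = 1 ∨ y = z) {k : G} (hk : k ∈ H)
    (hkS : k * z * k⁻¹ ∈ S) (hkz : k * z * k⁻¹ ≠ z) :
    (∃ M : Subgroup H, IsStronglyEmbedded M) ∨ th z = ⊥ := by
  by_cases hX : th z = ⊥
  · exact Or.inr hX
  left
  have hfour : ∀ t ∈ S ⊓ H, t * t = 1 → t ≠ 1 → t ≠ z → Four z t := fun t htR ht2 ht1 htz =>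
    ⟨hz.2.1, ht2, hz.2.2 t (mem_inf.1 htR).1, hz1, ht1, fun h => htz h.symm⟩
  by_cases hZH : ∀ ζ, InZ S ζ → ζ ∈ H
  · -- `Z ≤ H`
    have hCN : ∀ c, c * z = z * c → c ∈ normalizer (S : Set G) := by
      intro c hc
      apply h.hZ
      intro t htS ht2 htc
      rcases hu t ⟨htS, ht2, htc⟩ (hZH t ⟨htS, ht2, htc⟩) with rfl | rfl
      · rw [mul_one, one_mul]
      · exact hc
    have hXS : ∀ x ∈ th z, ∀ s ∈ S, x * s = s * x := by
      intro x hx s hs
      have h1 : x * s * x⁻¹ * s⁻¹ ∈ S :=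
        mul_mem (conj_mem_of_mem_normalizer (hCN x (th_le hx)) hs) (inv_mem hs)
      have h2 : x * s * x⁻¹ * s⁻¹ ∈ th z := by
        have h3 : x * s * x⁻¹ * s⁻¹ = x * (s * x⁻¹ * s⁻¹) := by group
        rw [h3]
        exact mul_mem hx (conj_mem_oc' (mem_centralizer_singleton_iff.2 (hz.2.2 s hs)) (inv_mem hx))
      have h4 := eq_one_of_mem h.syl.two (oc_odd _) h1 h2
      rwa [mul_inv_eq_one, mul_inv_eq_iff_eq_mul] at h4
    apply h.se_end hr hres hz hz1 hzH hu huR hk hkS hkz (Y := th z) (oc_odd _) hX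
    · intro g hg
      exact mem_normalizer_of_conj_le fun x hx => conj_mem_oc' (mem_centralizer_singleton_iff.2 hg) hx
    · intro t htR ht2 ht1 htz n hn hnz hnt
      have hf := hfour t htR ht2 ht1 htz
      set C : Subgroup G := centralizer (fourGroup hf : Set G) with hC
      have hCm : ∀ c, c ∈ C ↔ c * z = z * c ∧ c * t = t * c := by
        intro c
        rw [hC, mem_centralizer_iff]
        constructor
        · intro h1
          exact ⟨(h1 z ((mem_fourGroup hf).2 (Or.inr (Or.inl rfl)))).symm,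
            (h1 t ((mem_fourGroup hf).2 (Or.inr (Or.inr (Or.inl rfl))))).symm⟩
        · rintro ⟨h1, h2⟩ a ha
          rcases (mem_fourGroup hf).1 ha with rfl | rfl | rfl | rfl
          · rw [one_mul, mul_one]
          · exact h1.symm
          · exact h2.symm
          · rw [← mul_assoc, h1, mul_assoc, mul_assoc, h2]
      have hXC : th z = oc C := by
        apply le_antisymm
        · apply le_oc
          · intro x hx
            exact (hCm x).2 ⟨th_le hx, hXS x hx t (mem_inf.1 htR).1⟩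
          · intro c hc x hx
            exact conj_mem_oc' (mem_centralizer_singleton_iff.2 ((hCm c).1 hc).1) hx
          · exact oc_odd _
        · apply balance (h.solc z hz.2.1 hz1) ht2 (mem_centralizer_singleton_iff.2 hf.comm)
          · intro x hx
            exact mem_centralizer_singleton_iff.2 ((hCm x).1 (oc_le C hx)).1
          · intro x hx
            exact ((hCm x).1 (oc_le C hx)).2
          · intro g hg hgt x hx
            exact conj_mem_oc' ((hCm g).2 ⟨mem_centralizer_singleton_iff.1 hg, hgt⟩) hx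
          · exact oc_odd _
      have hnV := mem_normalizer_of_conj_le (cycle_norm hf hnz hnt)
      have hnC : n ∈ normalizer (C : Set G) := by
        apply mem_normalizer_of_conj_le
        intro c hc
        rw [hC, mem_centralizer_iff] at hc ⊢
        intro a ha
        have h1 := hc _ (conj_inv_mem_of_mem_normalizer hnV ha)
        calc a * (n * c * n⁻¹) = n * (n⁻¹ * a * n * c) * n⁻¹ := by group
          _ = n * (c * (n⁻¹ * a * n)) * n⁻¹ := by rw [h1]
          _ = _ := by group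
      rw [hXC]
      exact mem_normalizer_of_conj_le fun x hx => conj_mem_oc hnC hx
  · -- the signalizer functor
    push Not at hZH
    obtain ⟨ζ, hζ, hζH⟩ := hZH
    have hζ1 : ζ ≠ 1 := by
      rintro rfl
      exact hζH (one_mem _)
    have hζz : z ≠ ζ := by
      rintro rfl
      exact hζH hzH
    have hf₀ : Four z ζ := ⟨hz.2.1, hζ.2.1, hζ.comm hz, hz1, hζ1, hζz⟩
    -- the elementary abelian subgroups of order 8
    have hA : ∀ t ∈ S ⊓ H, t * t = 1 → t ≠ 1 → t ≠ z → ∀ hf : Four z t, ∃ A : Subgroup G,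
        IsElementaryAbelian 2 A ∧ 2 ^ 3 ≤ Nat.card A ∧ fourGroup hf₀ ≤ A ∧ fourGroup hf ≤ A := by
      intro t htR ht2 ht1 htz hf
      have htS := (mem_inf.1 htR).1
      have hk' : ∀ x ∈ ({z, t, ζ} : Set G), ∀ y ∈ ({z, t, ζ} : Set G), x * y = y * x := by
        have c1 := hf.comm
        have c2 := hf₀.comm
        have c3 := hζ.2.2 t htS
        rintro x (rfl | rfl | rfl) y (rfl | rfl | rfl) <;> first | rfl | assumption | (symm; assumption)
      have hk2 : ∀ x ∈ ({z, t, ζ} : Set G), x * x = 1 := by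
        rintro x (rfl | rfl | rfl)
        · exact hz.2.1
        · exact ht2
        · exact hζ.2.1
      have hm : ∀ x ∈ ({z, t, ζ} : Set G), x ∈ closure ({z, t, ζ} : Set G) := fun x hx => subset_closure hx
      have hV : fourGroup hf ≤ closure ({z, t, ζ} : Set G) := by
        intro a ha
        rcases (mem_fourGroup hf).1 ha with rfl | rfl | rfl | rfl
        · exact one_mem _
        · exact hm _ (by simp)
        · exact hm _ (by simp)
        · exact mul_mem (hm _ (by simp)) (hm _ (by simp))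
      refine ⟨closure {z, t, ζ}, ⟨isMulCommutative_closure hk', closure_sq hk' hk2⟩, ?_, ?_, hV⟩
      · have h1 : Nat.card (fourGroup hf) ∣ Nat.card (closure ({z, t, ζ} : Set G)) := Subgroup.card_dvd_of_le hV
        rw [card_fourGroup hf] at h1
        have h2 : Nat.card (closure ({z, t, ζ} : Set G)) ≠ 4 := by
          intro h3
          have h4 : fourGroup hf = closure ({z, t, ζ} : Set G) :=
            Subgroup.eq_of_le_of_card_ge hV (by rw [h3, card_fourGroup hf])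
          have h5 : ζ ∈ fourGroup hf := by
            rw [h4]
            exact hm _ (by simp)
          apply hζH
          rcases (mem_fourGroup hf).1 h5 with h6 | h6 | h6 | h6
          · rw [h6]; exact one_mem _
          · rw [h6]; exact hzH
          · rw [h6]; exact (mem_inf.1 htR).2
          · rw [h6]; exact mul_mem hzH (mem_inf.1 htR).2
        have h3 : 0 < Nat.card (closure ({z, t, ζ} : Set G)) := Nat.card_pos
        obtain ⟨c, hc⟩ := h1
        rw [hc] at h2 h3 ⊢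
        have h4 : c ≠ 1 := by rintro rfl; exact h2 rfl
        have h5 : c ≠ 0 := by rintro rfl; omega
        norm_num
        omega
      · intro a ha
        rcases (mem_fourGroup hf₀).1 ha with rfl | rfl | rfl | rfl
        · exact one_mem _
        · exact hm _ (by simp)
        · exact hm _ (by simp)
        · exact mul_mem (hm _ (by simp)) (hm _ (by simp))
    have hkR : k * z * k⁻¹ ∈ S ⊓ H := mem_inf.2 ⟨hkS, h.Hn k z hzH⟩
    have hkf := hfour _ hkR (conj_sq k hz.2.1) (conj_ne_one k hz1) hkz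
    obtain ⟨A₀, hA₀, hA₀8, hEA, -⟩ := hA _ hkR (conj_sq k hz.2.1) (conj_ne_one k hz1) hkz hkf
    have hodd : Odd (Nat.card (Th (fourGroup hf₀))) := by
      rw [Th_eq h.solc hA₀ hA₀8 hf₀ hEA]
      exact (Th_odd h.solc hA₀ hA₀8).1
    have hzE : z ∈ fourGroup hf₀ := (mem_fourGroup hf₀).2 (Or.inr (Or.inl rfl))
    have hle : th z ≤ Th (fourGroup hf₀) := th_le_Th hzE hz1
    apply h.se_end hr hres hz hz1 hzH hu huR hk hkS hkz (Y := Th (fourGroup hf₀)) hodd (fun hb => hX (by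
      rw [eq_bot_iff, ← hb]
      exact hle))
    · intro g hg
      obtain ⟨x, hx, -, hxg⟩ := h.Zprime hz hz1 hu hg
      have h1 : x ∈ normalizer (Th (fourGroup hf₀) : Set G) := (Th (fourGroup hf₀)).le_normalizer (hle hx)
      have h2 : x * g ∈ normalizer (Th (fourGroup hf₀) : Set G) := by
        apply mem_normalizer_of_conj_le
        intro y hy
        refine Th_conj (fun a ha => ?_) hy
        have haZ : InZ S a := by
          rcases (mem_fourGroup hf₀).1 ha with rfl | rfl | rfl | rfl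
          · exact InZ.one
          · exact hz
          · exact hζ
          · exact hz.mul hζ
        rw [hxg a haZ, mul_inv_cancel_right]
        exact ha
      have h3 := mul_mem (inv_mem h1) h2
      rwa [inv_mul_cancel_left] at h3
    · intro t htR ht2 ht1 htz n hn hnz hnt
      have hf := hfour t htR ht2 ht1 htz
      obtain ⟨A, hA1, hA8, hEA', hVA⟩ := hA t htR ht2 ht1 htz hf
      rw [Th_eq h.solc hA1 hA8 hf₀ hEA', ← Th_eq h.solc hA1 hA8 hf hVA]
      exact mem_normalizer_of_conj_le fun y hy => Th_conj (cycle_norm hf hnz hnt) hy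

/-- If `O(C(z)) = 1` and all involutions of `H` are conjugate then `H` is of characteristic 2 type. -/
theorem char_of_core (h : Sit G S H) {z : G} (hz : InZ S z) (hz1 : z ≠ 1) (hzH : z ∈ H) (hX : th z = ⊥)
    (hone : ∀ t ∈ H, t * t = 1 → t ≠ 1 → ∃ g ∈ H, g * z * g⁻¹ = t) : IsCharacteristicTwoType H := by
  have heH : Even (Nat.card H) := by
    have h1 : orderOf (⟨z, hzH⟩ : H) = 2 := by
      rw [Subgroup.orderOf_mk]
      exact ev_of_invol hz.2.1 hz1
    rw [even_iff_two_dvd, ← h1]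
    exact _root_.orderOf_dvd_natCard _
  apply char_two_of_cent heH
  · intro t ht2 ht1
    have hs := h.solc t (congrArg Subtype.val ht2) (fun h1 => ht1 (Subtype.ext h1))
    let f : centralizer ({t} : Set H) →* centralizer ({(t : G)} : Set G) :=
      { toFun := fun c => ⟨((c : H) : G), by
          rw [mem_centralizer_singleton_iff]
          exact congrArg Subtype.val (mem_centralizer_singleton_iff.1 c.2)⟩
        map_one' := rfl
        map_mul' := fun _ _ => rfl }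
    exact Group.isSolvable_of_isSolvable_injective (f := f) (fun x y hxy => by
      apply Subtype.ext
      apply Subtype.ext
      have h2 : ((f x : centralizer ({(t : G)} : Set G)) : G) = f y := by rw [hxy]
      exact h2)
  · intro t ht2 ht1
    have ht1' : (t : G) ≠ 1 := fun h1 => ht1 (Subtype.ext h1)
    obtain ⟨g, hg, hgt⟩ := hone t t.2 (congrArg Subtype.val ht2) ht1'
    have hth : th (t : G) = ⊥ := by
      rw [eq_bot_iff]
      intro x hx
      have h1 : g⁻¹ * x * g⁻¹⁻¹ ∈ th (g⁻¹ * t * g⁻¹⁻¹) := conj_mem_th hx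
      have h2 : g⁻¹ * t * g⁻¹⁻¹ = z := by rw [← hgt]; group
      rw [h2, hX, mem_bot, inv_inv] at h1
      rw [mem_bot]
      have h3 : x = g * (g⁻¹ * x * g) * g⁻¹ := by group
      rw [h3, h1]
      group
    set Ct : Subgroup G := H ⊓ centralizer ({(t : G)} : Set G) with hCt
    have h1 : oc Ct ≤ th (t : G) := by
      apply le_oc ((oc_le _).trans inf_le_right) _ (oc_odd _)
      intro c hc x hx
      apply conj_mem_oc _ hx
      apply mem_normalizer_of_conj_le
      intro y hy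
      exact mem_inf.2 ⟨h.Hn c y (mem_inf.1 hy).1, mul_mem (mul_mem hc (mem_inf.1 hy).2) (inv_mem hc)⟩
    rw [hth] at h1
    have h2 : (oc (centralizer ({t} : Set H))).map H.subtype ≤ oc Ct := by
      apply le_oc
      · rintro _ ⟨y, hy, rfl⟩
        exact mem_inf.2 ⟨y.2, mem_centralizer_singleton_iff.2
          (congrArg Subtype.val (mem_centralizer_singleton_iff.1 (oc_le _ hy)))⟩
      · rintro c hc _ ⟨y, hy, rfl⟩
        obtain ⟨hc1, hc2⟩ := mem_inf.1 hc
        refine ⟨⟨c, hc1⟩ * y * ⟨c, hc1⟩⁻¹, conj_mem_oc' ?_ hy, rfl⟩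
        exact mem_centralizer_singleton_iff.2 (Subtype.ext (mem_centralizer_singleton_iff.1 hc2))
      · rw [← Nat.card_congr ((oc (centralizer ({t} : Set H))).equivMapOfInjective _ H.subtype_injective).toEquiv]
        exact oc_odd _
    have h3 : (oc (centralizer ({t} : Set H))).map H.subtype = ⊥ := le_bot_iff.1 (h2.trans h1)
    rw [Subgroup.map_eq_bot_iff_of_injective _ H.subtype_injective] at h3
    have h4 : (pPrimeCore 2 (centralizer ({t} : Set H))).map (centralizer ({t} : Set H)).subtype = ⊥ := h3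
    rwa [Subgroup.map_eq_bot_iff_of_injective _ (Subgroup.subtype_injective _)] at h4

end Sit

end Cfsg.Agent.H444.ZNSit
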