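import Mathlib
import Cfsg.Prelude.Def_CaseTheorems
import Cfsg.Agent.LieExceptional.CITDihedral

/-!
# 2-local subgroups isomorphic to the symmetric group of degree 4
-/

set_option autoImplicit false

namespace Cfsg.Agent.H444.ZNFour

open Subgroup Cfsg

abbrev a4 : Equiv.Perm (Fin 4) := Equiv.swap 0 1 * Equiv.swap 2 3
abbrev b4 : Equiv.Perm (Fin 4) := Equiv.swap 0 2 * Equiv.swap 1 3
abbrev c4 : Equiv.Perm (Fin 4) := Equiv.swap 0 3 * Equiv.swap 1 2

set_option maxRecDepth 100000 in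
theorem s4_cases : ∀ x : Equiv.Perm (Fin 4), x = 1 ∨ x = a4 ∨ x = b4 ∨ x = c4 ∨
    ∃ g : Equiv.Perm (Fin 4), (x * (g * x * g⁻¹)) ^ 3 = 1 ∧ x * (g * x * g⁻¹) ≠ 1 := by
  decide

set_option maxRecDepth 100000 in
theorem s4_comm : ∀ x : Equiv.Perm (Fin 4), x * a4 = a4 * x → x * b4 = b4 * x →
    x = 1 ∨ x = a4 ∨ x = b4 ∨ x = c4 := by
  decide

theorem s4_conj : (∃ g : Equiv.Perm (Fin 4), g * a4 * g⁻¹ = b4) ∧ (∃ g : Equiv.Perm (Fin 4), g * a4 * g⁻¹ = c4) ∧
    (∃ g : Equiv.Perm (Fin 4), g * b4 * g⁻¹ = a4) ∧ (∃ g : Equiv.Perm (Fin 4), g * c4 * g⁻¹ = a4) := by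
  decide

theorem eq_one_of_pow {G : Type*} [Group G] {x : G} {a b : ℕ} (hab : a.Coprime b) (ha : x ^ a = 1)
    (hb : x ^ b = 1) : x = 1 := by
  have h1 : orderOf x ∣ 1 := by
    have h2 := Nat.dvd_gcd (orderOf_dvd_of_pow_eq_one ha) (orderOf_dvd_of_pow_eq_one hb)
    rwa [hab] at h2
  rwa [Nat.dvd_one, orderOf_eq_one_iff] at h1

theorem s4_normal (N : Subgroup (Equiv.Perm (Fin 4))) (hn : N.Normal) (hp : IsPGroup 2 N) (h1 : N ≠ ⊥) :
    ∀ x, x ∈ N ↔ x = 1 ∨ x = a4 ∨ x = b4 ∨ x = c4 := by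
  have hle : ∀ x ∈ N, x = 1 ∨ x = a4 ∨ x = b4 ∨ x = c4 := by
    intro x hx
    rcases s4_cases x with h | h | h | h | ⟨g, hg3, hg1⟩
    · exact Or.inl h
    · exact Or.inr (Or.inl h)
    · exact Or.inr (Or.inr (Or.inl h))
    · exact Or.inr (Or.inr (Or.inr h))
    · exfalso
      have h2 : x * (g * x * g⁻¹) ∈ N := mul_mem hx (hn.conj_mem x hx g)
      obtain ⟨k, hk⟩ := hp ⟨_, h2⟩
      have hk' : (x * (g * x * g⁻¹)) ^ 2 ^ k = 1 := congrArg Subtype.val hk
      exact hg1 (eq_one_of_pow (Nat.Coprime.pow_right k (by norm_num)) hg3 hk')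
  obtain ⟨x, hx, hx1⟩ : ∃ x ∈ N, x ≠ 1 := by
    by_contra hcon
    push Not at hcon
    exact h1 (by rw [eq_bot_iff]; intro y hy; exact mem_bot.2 (hcon y hy))
  obtain ⟨⟨g1, hg1⟩, ⟨g2, hg2⟩, ⟨g3, hg3⟩, ⟨g4, hg4⟩⟩ := s4_conj
  have ha : a4 ∈ N := by
    rcases hle x hx with h | h | h | h
    · exact absurd h hx1
    · rwa [← h]
    · rw [← hg3, ← h]
      exact hn.conj_mem x hx g3
    · rw [← hg4, ← h]
      exact hn.conj_mem x hx g4
  intro y
  refine ⟨hle y, ?_⟩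
  rintro (rfl | rfl | rfl | rfl)
  · exact one_mem _
  · exact ha
  · rw [← hg1]
    exact hn.conj_mem _ ha g1
  · rw [← hg2]
    exact hn.conj_mem _ ha g2

theorem s4_sq : a4 * a4 = 1 ∧ b4 * b4 = 1 ∧ c4 * c4 = 1 := by decide

theorem s4_card (N : Subgroup (Equiv.Perm (Fin 4))) (h : ∀ x, x ∈ N ↔ x = 1 ∨ x = a4 ∨ x = b4 ∨ x = c4) :
    Nat.card N = 4 := by
  have h1 : (N : Set (Equiv.Perm (Fin 4))) = (({1, a4, b4, c4} : Finset (Equiv.Perm (Fin 4))) : Set _) := by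
    ext a
    simp only [SetLike.mem_coe, h, Finset.coe_insert, Finset.coe_singleton, Set.mem_insert_iff,
      Set.mem_singleton_iff]
  have h2 : Nat.card N = (({1, a4, b4, c4} : Finset (Equiv.Perm (Fin 4)))).card := by
    have h3 : Nat.card N = (N : Set (Equiv.Perm (Fin 4))).ncard := rfl
    rw [h3, h1, Set.ncard_coe_finset]
  rw [h2]
  decide

theorem isQuasiDihedral_congr {A B : Type*} [Group A] [Group B] (e : A ≃* B) (h : Cfsg.IsQuasiDihedral A) :
    Cfsg.IsQuasiDihedral B := by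
  obtain ⟨n, hn, hc, x, y, hx, hy, hxy⟩ := h
  refine ⟨n, hn, ?_, e x, e y, ?_, ?_, ?_⟩
  · rw [← hc]; exact (Nat.card_congr e.toEquiv).symm
  · rw [MulEquiv.orderOf_eq, hx]
  · rw [MulEquiv.orderOf_eq, hy]
  · rw [← map_inv, ← map_mul, ← map_mul, hxy, map_pow]

theorem congr {A B : Type*} [Group A] [Group B] (e : A ≃* B)
    (h : (∃ m : ℕ, 2 ≤ m ∧ Nonempty (A ≃* DihedralGroup m)) ∨ Cfsg.IsQuasiDihedral A) :
    (∃ m : ℕ, 2 ≤ m ∧ Nonempty (B ≃* DihedralGroup m)) ∨ Cfsg.IsQuasiDihedral B := by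
  rcases h with ⟨m, hm, ⟨f⟩⟩ | h
  · exact Or.inl ⟨m, hm, ⟨e.symm.trans f⟩⟩
  · exact Or.inr (isQuasiDihedral_congr e h)

/-- If the normalizer of a nontrivial 2-subgroup is isomorphic to `S₄`, the Sylow 2-subgroups are dihedral or
quasi-dihedral. -/
theorem dihedral_of_norm {K : Type*} [Group K] [Finite K] {T : Subgroup K} (hT : IsPGroup 2 T) (hT1 : T ≠ ⊥)
    (e : normalizer (T : Set K) ≃* Equiv.Perm (Fin 4)) (P : Sylow 2 K) :
    (∃ m : ℕ, 2 ≤ m ∧ Nonempty (P ≃* DihedralGroup m)) ∨ Cfsg.IsQuasiDihedral P := by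
  have : Fact (Nat.Prime 2) := ⟨Nat.prime_two⟩
  set T' : Subgroup (normalizer (T : Set K)) := T.subgroupOf (normalizer (T : Set K)) with hT'
  have hT'n : T'.Normal := ⟨fun x hx g => by
    rw [hT', mem_subgroupOf] at hx ⊢
    exact (mem_normalizer_iff.1 g.2 _).1 hx⟩
  have hmem : ∀ x : normalizer (T : Set K), x ∈ T' ↔ (x : K) ∈ T := fun x => mem_subgroupOf
  set N := T'.map e.toMonoidHom with hN
  have hNn : N.Normal := hT'n.map _ e.surjective
  have hNp : IsPGroup 2 N := (hT.comap_subtype).map _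
  have hmemN : ∀ x : normalizer (T : Set K), e x ∈ N ↔ (x : K) ∈ T := by
    intro x
    rw [← hmem]
    constructor
    · rintro ⟨y, hy, hyx⟩
      rwa [← e.injective hyx]
    · intro hx
      exact ⟨x, hx, rfl⟩
  have hN1 : N ≠ ⊥ := by
    intro hb
    apply hT1
    rw [eq_bot_iff]
    intro x hx
    have h1 := (hmemN ⟨x, T.le_normalizer hx⟩).2 hx
    rw [hb, mem_bot] at h1
    have h2 := e.injective (h1.trans (map_one e).symm)
    exact mem_bot.2 (congrArg Subtype.val h2)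
  have hNm := s4_normal N hNn hNp hN1
  have hcard : Nat.card T = 4 := by
    rw [← s4_card N hNm]
    have h1 : Nat.card T' = Nat.card T := Nat.card_congr (subgroupOfEquivOfLe T.le_normalizer).toEquiv
    have h2 : Nat.card N = Nat.card T' := (Nat.card_congr (T'.equivMapOfInjective _ e.injective).toEquiv).symm
    rw [h2, h1]
  obtain ⟨ha, hb, hc⟩ := s4_sq
  have hsq : ∀ x ∈ T, x * x = 1 := by
    intro x hx
    have h1 := (hNm _).1 ((hmemN ⟨x, T.le_normalizer hx⟩).2 hx)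
    have h2 : e ⟨x, T.le_normalizer hx⟩ * e ⟨x, T.le_normalizer hx⟩ = 1 := by
      rcases h1 with h1 | h1 | h1 | h1 <;> rw [h1]
      · exact one_mul _
      · exact ha
      · exact hb
      · exact hc
    rw [← map_mul] at h2
    exact congrArg Subtype.val (e.injective (h2.trans (map_one e).symm))
  have hcent : ∀ g : K, (∀ x ∈ T, g * x = x * g) → g ∈ T := by
    intro g hg
    have hgN : g ∈ normalizer (T : Set K) := Subgroup.centralizer_le_normalizer _ (by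
      rw [mem_centralizer_iff]
      intro x hx
      exact (hg x hx).symm)
    have key : ∀ y ∈ N, e ⟨g, hgN⟩ * y = y * e ⟨g, hgN⟩ := by
      rintro _ ⟨x, hx, rfl⟩
      show e ⟨g, hgN⟩ * e x = e x * e ⟨g, hgN⟩
      rw [← map_mul, ← map_mul]
      congr 1
      exact Subtype.ext (hg x ((hmem x).1 hx))
    have h1 := s4_comm (e ⟨g, hgN⟩) (key _ ((hNm _).2 (Or.inr (Or.inl rfl))))
      (key _ ((hNm _).2 (Or.inr (Or.inr (Or.inl rfl)))))
    exact (hmemN ⟨g, hgN⟩).1 ((hNm _).2 h1)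
  obtain ⟨Q, hQ⟩ := hT.exists_le_sylow
  have hV := Cfsg.Agent.LieExceptional.CITDihedral.dihedral_or_qd Q.isPGroup' (T.subgroupOf (Q : Subgroup K))
    (by rw [← hcard]; exact Nat.card_congr (subgroupOfEquivOfLe hQ).toEquiv)
    (fun v hv => Subtype.ext (hsq v (mem_subgroupOf.1 hv)))
    (by
      ext x
      rw [mem_centralizer_iff, mem_subgroupOf]
      constructor
      · intro h
        exact hcent _ fun y hy => congrArg Subtype.val (h ⟨y, hQ hy⟩ (mem_subgroupOf.2 hy)).symm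
      · intro hx y hy
        apply Subtype.ext
        have hy' : (y : K) ∈ T := mem_subgroupOf.1 hy
        show (y : K) * x = x * y
        have h1 := hsq _ (mul_mem hy' hx)
        have h2 : (y : K)⁻¹ = y := inv_eq_of_mul_eq_one_right (hsq _ hy')
        have h3 : (x : K)⁻¹ = x := inv_eq_of_mul_eq_one_right (hsq _ hx)
        have h4 : ((y : K) * x)⁻¹ = y * x := inv_eq_of_mul_eq_one_right h1
        rw [mul_inv_rev, h2, h3] at h4
        exact h4.symm)
  exact congr (Sylow.equiv Q P) hV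

end Cfsg.Agent.H444.ZNFour
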