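import Mathlib
import Cfsg.Agent.H444.ZNRankTwo
import Cfsg.Agent.H444.ZNFour
import Cfsg.Agent.S0518

/-!
# ZN-groups: the case of characteristic 2 type
-/

set_option autoImplicit false
set_option linter.unusedSectionVars false

namespace Cfsg.Agent.H444.ZNSit

open Subgroup Cfsg Cfsg.Agent.StdEven.Syl

variable {G : Type*} [Group G] [Finite G] {S H : Subgroup G}

/-- Groups of characteristic 2 have no nontrivial normal subgroups of odd order. -/
theorem char_odd {L : Type*} [Group L] [Finite L] (hc : IsOfCharacteristicTwo L) (Y : Subgroup L) (hY : Y.Normal)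
    (hodd : Odd (Nat.card Y)) : Y = ⊥ := by
  have hP : (pCore 2 L).Normal := Cfsg.Agent.Lib.Cores.pCore_normal 2
  have hPp : IsPGroup 2 (pCore 2 L) := Cfsg.Agent.Lib.Cores.pCore_isPGroup 2
  have h1 : ∀ y ∈ Y, ∀ x ∈ pCore 2 L, y * x = x * y := by
    intro y hy x hx
    have h2 : y * x * y⁻¹ * x⁻¹ ∈ pCore 2 L := mul_mem (hP.conj_mem x hx y) (inv_mem hx)
    have h3 : y * x * y⁻¹ * x⁻¹ ∈ Y := by
      have h4 : y * x * y⁻¹ * x⁻¹ = y * (x * y⁻¹ * x⁻¹) := by group
      rw [h4]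
      exact mul_mem hy (hY.conj_mem _ (inv_mem hy) x)
    have h4 := eq_one_of_mem hPp hodd h2 h3
    rwa [mul_inv_eq_one, mul_inv_eq_iff_eq_mul] at h4
  rw [eq_bot_iff]
  intro y hy
  have h2 : y ∈ pCore 2 L := hc (by
    rw [mem_centralizer_iff]
    intro x hx
    exact (h1 y hy x hx).symm)
  exact mem_bot.2 (eq_one_of_mem hPp hodd h2 hy)

theorem conj_InZ {T : Subgroup G} {g x : G} (hg : g ∈ normalizer (T : Set G)) (hx : InZ T x) :
    InZ T (g * x * g⁻¹) := by
  refine ⟨conj_mem_of_mem_normalizer hg hx.1, conj_sq g hx.2.1, fun s hs => ?_⟩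
  have h1 := hx.2.2 _ (conj_inv_mem_of_mem_normalizer hg hs)
  calc s * (g * x * g⁻¹) = g * ((g⁻¹ * s * g) * x) * g⁻¹ := by group
    _ = g * (x * (g⁻¹ * s * g)) * g⁻¹ := by rw [h1]
    _ = _ := by group

namespace Sit

theorem char_norm (h : Sit G S H) (hch : IsCharacteristicTwoType H) {c : G}
    (hc : ∀ x, InZ (S ⊓ H) x → c * x = x * c) : c ∈ normalizer (S : Set G) := by
  obtain ⟨z, hz, hzH, hz1⟩ := h.exists_z
  set ZR : Subgroup G := zSub (S ⊓ H) with hZR
  have hzZ : z ∈ ZR := ⟨mem_inf.2 ⟨hz.1, hzH⟩, hz.2.1, fun s hs => hz.2.2 s (mem_inf.1 hs).1⟩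
  have hZRp : IsPGroup 2 ZR := zSub_isPGroup _
  have hZR1 : ZR ≠ ⊥ := by
    intro hb
    rw [hb, mem_bot] at hzZ
    exact hz1 hzZ
  have hZRH : ZR ≤ H := fun x hx => (mem_inf.1 (mem_zSub.1 hx).1).2
  set N : Subgroup G := normalizer (ZR : Set G) with hN
  set C : Subgroup G := centralizer (ZR : Set G) with hC
  have hCN : C ≤ N := Subgroup.centralizer_le_normalizer _
  have hCs : Group.IsSolvable C := isSolvable_of_le (fun g hg => by
    rw [mem_centralizer_singleton_iff]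
    exact (mem_centralizer_iff.1 hg z hzZ).symm) (h.solc z hz.2.1 hz1)
  have hSN : S ≤ N := fun s hs => mem_normalizer_of_conj_le fun x hx =>
    conj_InZ (h.norm_inf (S.le_normalizer hs)) hx
  have hCm : ∀ x, x ∈ C ↔ ∀ y ∈ ZR, x * y = y * x := by
    intro x
    rw [hC, mem_centralizer_iff]
    exact ⟨fun h y hy => (h y hy).symm, fun h y hy => (h y hy).symm⟩
  have hNC : N ≤ normalizer (C : Set G) := by
    intro n hn
    apply mem_normalizer_of_conj_le
    intro x hx
    rw [hCm] at hx ⊢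
    intro y hy
    have h1 := hx _ (conj_inv_mem_of_mem_normalizer hn hy)
    calc n * x * n⁻¹ * y = n * (x * (n⁻¹ * y * n)) * n⁻¹ := by group
      _ = n * (n⁻¹ * y * n * x) * n⁻¹ := by rw [h1]
      _ = _ := by group
  have hSC : IsSyl (S ⊓ C) C := (h.syl.mono hSN le_top).inf_normal hCN hNC
  -- `O(C) = 1`
  have hoc : oc C = ⊥ := by
    have hocH : oc C ≤ H := h.le_of_odd (oc_odd C)
    set N₁ : Subgroup H := normalizer ((ZR.subgroupOf H : Subgroup H) : Set H) with hN₁
    have hchar : IsOfCharacteristicTwo N₁ := hch.2 (ZR.subgroupOf H) hZRp.comap_subtype (by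
      intro hb
      rw [Subgroup.subgroupOf_eq_bot] at hb
      exact hZR1 (by rw [eq_bot_iff]; exact (le_inf le_rfl hZRH).trans hb.le_bot))
    have hoN : (oc C).subgroupOf H ≤ N₁ := by
      intro x hx
      apply mem_normalizer_of_conj_le
      intro y hy
      have h1 := (hCm _).1 (oc_le C (mem_subgroupOf.1 hx)) _ (mem_subgroupOf.1 hy)
      have h2 : x * y * x⁻¹ = y := by
        rw [mul_inv_eq_iff_eq_mul]
        exact Subtype.ext h1
      rwa [h2]
    have hnorm : (((oc C).subgroupOf H).subgroupOf N₁).Normal := by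
      refine ⟨fun x hx g => ?_⟩
      rw [mem_subgroupOf, mem_subgroupOf] at hx ⊢
      apply conj_mem_oc _ hx
      apply hNC
      apply mem_normalizer_of_conj_le
      intro y hy
      have h1 := conj_mem_of_mem_normalizer g.2 (show (⟨y, hZRH hy⟩ : H) ∈ ZR.subgroupOf H from mem_subgroupOf.2 hy)
      exact mem_subgroupOf.1 h1
    have hodd : Odd (Nat.card (((oc C).subgroupOf H).subgroupOf N₁)) := by
      rw [Nat.card_congr (subgroupOfEquivOfLe hoN).toEquiv, Nat.card_congr (subgroupOfEquivOfLe hocH).toEquiv]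
      exact oc_odd C
    have hb := char_odd hchar _ hnorm hodd
    rw [eq_bot_iff]
    intro x hx
    have h1 : (⟨⟨x, hocH hx⟩, hoN (mem_subgroupOf.2 hx)⟩ : N₁) ∈ ((oc C).subgroupOf H).subgroupOf N₁ := by
      rw [mem_subgroupOf, mem_subgroupOf]
      exact hx
    rw [hb, mem_bot] at h1
    exact mem_bot.2 (congrArg Subtype.val (congrArg Subtype.val h1))
  have hcC : c ∈ C := (hCm c).2 hc
  apply h.hZ
  intro t htS ht2 htc
  have htC : t ∈ C := (hCm t).2 fun y hy => (htc y (mem_inf.1 (mem_zSub.1 hy).1).1).symm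
  obtain ⟨v, hvH, hvS, hvC, hv2, hvc, hvm⟩ := h.central_mod C hCs hSC htS htC ht2 htc
  have hRC : ∀ r ∈ S ⊓ H, r ∈ C := fun r hr => (hCm r).2 fun y hy => (mem_zSub.1 hy).2.2 r hr
  have hvZ : InZ (S ⊓ H) v := ⟨mem_inf.2 ⟨hvS, hvH⟩, hv2, fun r hr => hvc r (mem_inf.1 hr).1 (hRC r hr)⟩
  have h1 := hvm c hcC
  rw [hoc, mem_bot, mul_inv_eq_one, mul_inv_eq_iff_eq_mul] at h1
  have h2 := hc v hvZ
  have h3 : c * t * v = t * c * v := by
    calc c * t * v = c * (t * v) := mul_assoc _ _ _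
      _ = t * v * c := h1
      _ = t * (v * c) := mul_assoc _ _ _
      _ = t * c * v := by rw [← h2, mul_assoc]
  exact mul_right_cancel h3

end Sit

end Cfsg.Agent.H444.ZNSit
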