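import Mathlib
import Cfsg.Prelude.Def_CaseTheorems
import Cfsg.Prelude.Def_Involutions
import Cfsg.Agent.StdEven.Syl
import Cfsg.Agent.Lib.Cores
import Cfsg.Agent.H444.CentralMod
import Cfsg.Agent.TwoFusion.RankTwoBasic

/-!
# ZN-groups: the residual `H = O²(G)` and the involutions of `Z(S)`
-/

set_option autoImplicit false
set_option linter.unusedSectionVars false

namespace Cfsg.Agent.H444.ZNSit

open Subgroup Cfsg Cfsg.Agent.StdEven.Syl

/-! ### `O(C)` in the ambient group -/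

section oc

variable {G : Type*} [Group G]

/-- `O(C)` as a subgroup of the ambient group. -/
def oc (C : Subgroup G) : Subgroup G := (pPrimeCore 2 C).map C.subtype

theorem oc_le (C : Subgroup G) : oc C ≤ C := by
  rintro _ ⟨x, -, rfl⟩
  exact x.2

theorem mem_oc {C : Subgroup G} {x : G} (hx : x ∈ C) : x ∈ oc C ↔ (⟨x, hx⟩ : C) ∈ pPrimeCore 2 C := by
  constructor
  · rintro ⟨y, hy, hyx⟩
    have h1 : y = ⟨x, hx⟩ := Subtype.ext hyx
    rwa [← h1]
  · intro h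
    exact ⟨_, h, rfl⟩

variable [Finite G]

theorem oc_odd (C : Subgroup G) : Odd (Nat.card (oc C)) := by
  have h1 : (Nat.card (pPrimeCore 2 C)).Coprime 2 := Cfsg.Agent.Lib.Cores.pPrimeCore_coprime 2
  have h2 : Nat.card (oc C) = Nat.card (pPrimeCore 2 C) :=
    (Nat.card_congr ((pPrimeCore 2 C).equivMapOfInjective C.subtype C.subtype_injective).toEquiv).symm
  rw [h2]
  exact Nat.coprime_two_right.1 h1

theorem le_oc {C Y : Subgroup G} (hYC : Y ≤ C) (hn : ∀ c ∈ C, ∀ y ∈ Y, c * y * c⁻¹ ∈ Y) (hodd : Odd (Nat.card Y)) :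
    Y ≤ oc C := by
  have h1 : (Y.subgroupOf C).Normal := ⟨fun y hy c => by
    rw [mem_subgroupOf] at hy ⊢
    exact hn c c.2 _ hy⟩
  have h2 : Nat.card (Y.subgroupOf C) = Nat.card Y := Nat.card_congr (subgroupOfEquivOfLe hYC).toEquiv
  have h3 : Y.subgroupOf C ≤ pPrimeCore 2 C := Cfsg.Agent.Lib.Cores.le_pPrimeCore h1 (by
    rw [h2]
    exact Nat.coprime_two_right.2 hodd)
  intro y hy
  exact ⟨⟨y, hYC hy⟩, h3 (mem_subgroupOf.2 hy), rfl⟩

theorem conj_mem_oc {C : Subgroup G} {g x : G} (hg : g ∈ normalizer (C : Set G)) (hx : x ∈ oc C) :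
    g * x * g⁻¹ ∈ oc C := by
  have h1 : (oc C).map (MulAut.conj g).toMonoidHom ≤ oc C := by
    apply le_oc
    · rintro _ ⟨y, hy, rfl⟩
      exact conj_mem_of_mem_normalizer hg (oc_le C hy)
    · intro c hc y hy
      rw [mem_map_conj] at hy ⊢
      have h2 : g⁻¹ * c * g ∈ C := conj_inv_mem_of_mem_normalizer hg hc
      have h3 : g⁻¹ * (c * y * c⁻¹) * g = (g⁻¹ * c * g) * (g⁻¹ * y * g) * (g⁻¹ * c * g)⁻¹ := by group
      rw [h3]
      have hn : (pPrimeCore 2 C).Normal := Cfsg.Agent.Lib.Cores.pPrimeCore_normal 2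
      obtain ⟨z, hz, hzy⟩ := hy
      rw [← hzy]
      exact ⟨⟨_, h2⟩ * z * ⟨_, h2⟩⁻¹, hn.conj_mem z hz _, rfl⟩
    · have h2 : Nat.card ((oc C).map (MulAut.conj g).toMonoidHom) = Nat.card (oc C) :=
        (Nat.card_congr ((oc C).equivMapOfInjective _ (MulAut.conj g).injective).toEquiv).symm
      rw [h2]
      exact oc_odd C
  exact h1 (conj_mem_map g hx)

theorem conj_mem_oc' {C : Subgroup G} {g x : G} (hg : g ∈ C) (hx : x ∈ oc C) :
    g * x * g⁻¹ ∈ oc C := conj_mem_oc (C.le_normalizer hg) hx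

/-- an element of 2-power order in a subgroup of odd order is trivial -/
theorem eq_one_of_mem {R X : Subgroup G} (hR : IsPGroup 2 R) (hX : Odd (Nat.card X)) {y : G} (hy : y ∈ R)
    (hyX : y ∈ X) : y = 1 := by
  obtain ⟨k, hk⟩ := IsPGroup.iff_orderOf.1 hR ⟨y, hy⟩
  rw [Subgroup.orderOf_mk] at hk
  have h3 : orderOf y ∣ Nat.card X := by
    rw [← Subgroup.orderOf_mk y hyX]
    exact _root_.orderOf_dvd_natCard _
  rw [hk] at h3
  rcases Nat.eq_zero_or_pos k with rfl | hk0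
  · rwa [pow_zero, orderOf_eq_one_iff] at hk
  · exfalso
    have h4 : 2 ∣ Nat.card X := (dvd_pow_self 2 hk0.ne').trans h3
    exact (Nat.not_even_iff_odd.2 hX) (even_iff_two_dvd.2 h4)

/-- If the involution `t` is moved by `m` inside `tY`, `Y` of odd order, it can be moved back by an element of `Y`. -/
theorem exists_mul_conj_eq {Y : Subgroup G} (hY : Odd (Nat.card Y)) {t m : G} (ht : t * t = 1)
    (hm : m * t * m⁻¹ * t⁻¹ ∈ Y) : ∃ e ∈ Y, (e * m) * t * (e * m)⁻¹ = t := by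
  set y := m * t * m⁻¹ * t⁻¹ with hy
  have hti : t⁻¹ = t := inv_eq_of_mul_eq_one_right ht
  have h1 : y * t = m * t * m⁻¹ := by rw [hy, inv_mul_cancel_right]
  have h2 : (y * t) * (y * t) = 1 := by
    rw [h1]
    calc m * t * m⁻¹ * (m * t * m⁻¹) = m * (t * t) * m⁻¹ := by group
      _ = 1 := by rw [ht]; group
  -- `t` inverts `y`
  have h3 : t * y * t⁻¹ = y⁻¹ := by
    rw [hti, eq_inv_iff_mul_eq_one]
    have h4 : t * (y * t * (y * t)) * t⁻¹ = 1 := by rw [h2]; group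
    calc t * y * t * y = t * (y * t * (y * t)) * t⁻¹ := by group
      _ = 1 := h4
  have hodd : Odd (orderOf y) := by
    have h4 : orderOf y ∣ Nat.card Y := by
      rw [← Subgroup.orderOf_mk y hm]
      exact _root_.orderOf_dvd_natCard _
    exact Odd.of_dvd_nat hY h4
  obtain ⟨j, hj⟩ := hodd
  refine ⟨y ^ j, pow_mem hm j, ?_⟩
  have h5 : t * y ^ j * t⁻¹ = (y ^ j)⁻¹ := by
    rw [← conj_pow, h3, inv_pow]
  have h6 : t * (y ^ j)⁻¹ = y ^ j * t := by
    have h7 := congrArg (·⁻¹) h5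
    simp only [mul_inv_rev, inv_inv] at h7
    calc t * (y ^ j)⁻¹ = t * ((y ^ j)⁻¹ * t⁻¹) * t := by group
      _ = y ^ j * t := by rw [h7]
  calc y ^ j * m * t * (y ^ j * m)⁻¹ = y ^ j * (m * t * m⁻¹) * (y ^ j)⁻¹ := by group
    _ = y ^ j * y * (t * (y ^ j)⁻¹) := by rw [← h1]; group
    _ = y ^ (2 * j + 1) * t := by rw [h6, two_mul, pow_succ, pow_add]; group
    _ = t := by rw [← hj, pow_orderOf_eq_one, one_mul]

theorem isSolvable_of_le {C L : Subgroup G} (h : C ≤ L) (hL : Group.IsSolvable L) : Group.IsSolvable C :=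
  Group.isSolvable_of_isSolvable_injective (f := Subgroup.inclusion h) (Subgroup.inclusion_injective h)

end oc

/-- The situation: `S` a Sylow 2-subgroup and `H = O²(G)`. -/
structure Sit (G : Type*) [Group G] (S H : Subgroup G) : Prop where
  even : Even (Nat.card G)
  syl : IsSyl S ⊤
  Hn : ∀ g, ∀ h ∈ H, g * h * g⁻¹ ∈ H
  HS : ∀ g : G, ∃ h ∈ H, ∃ s ∈ S, g = h * s
  odd : ∀ g : G, Odd (orderOf g) → g ∈ H
  solc : ∀ z : G, z * z = 1 → z ≠ 1 → Group.IsSolvable (centralizer ({z} : Set G))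
  hZ : ∀ g : G, (∀ t ∈ S, t * t = 1 → (∀ s ∈ S, s * t = t * s) → g * t = t * g) → g ∈ normalizer (S : Set G)
  O1 : ∀ N : Subgroup G, N.Normal → Odd (Nat.card N) → N = ⊥
  O2 : ∀ N : Subgroup G, N.Normal → IsPGroup 2 N → N = ⊥

namespace Sit

variable {G : Type*} [Group G] [Finite G] {S H : Subgroup G}

theorem le_of_odd (h : Sit G S H) {Y : Subgroup G} (hY : Odd (Nat.card Y)) : Y ≤ H := by
  intro y hy
  apply h.odd
  have h4 : orderOf y ∣ Nat.card Y := by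
    rw [← Subgroup.orderOf_mk y hy]
    exact _root_.orderOf_dvd_natCard _
  exact Odd.of_dvd_nat hY h4

theorem comm_mem (h : Sit G S H) {t : G} (htc : ∀ s ∈ S, s * t = t * s) (g : G) : g * t * g⁻¹ * t⁻¹ ∈ H := by
  obtain ⟨k, hk, s, hs, rfl⟩ := h.HS g
  have h1 : k * s * t * (k * s)⁻¹ * t⁻¹ = k * (t * k⁻¹ * t⁻¹) := by
    calc k * s * t * (k * s)⁻¹ * t⁻¹ = k * (s * t) * s⁻¹ * k⁻¹ * t⁻¹ := by group
      _ = k * (t * s) * s⁻¹ * k⁻¹ * t⁻¹ := by rw [htc s hs]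
      _ = _ := by group
  rw [h1]
  exact mul_mem hk (h.Hn t _ (inv_mem hk))

theorem sylH (h : Sit G S H) : IsSyl (S ⊓ H) H := by
  apply h.syl.inf_normal le_top
  intro g _
  exact mem_normalizer_of_conj_le (h.Hn g)

theorem norm_inf (h : Sit G S H) {g : G} (hg : g ∈ normalizer (S : Set G)) :
    g ∈ normalizer ((S ⊓ H : Subgroup G) : Set G) :=
  mem_normalizer_of_conj_le fun x hx =>
    mem_inf.2 ⟨conj_mem_of_mem_normalizer hg (mem_inf.1 hx).1, h.Hn g x (mem_inf.1 hx).2⟩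

theorem sol_centralizer (h : Sit G S H) {z : G} (hz2 : z * z = 1) (hz1 : z ≠ 1) :
    Group.IsSolvable (centralizer ({z} : Set G)) := h.solc z hz2 hz1

theorem central_mod (h : Sit G S H) (C : Subgroup G) (hC : Group.IsSolvable C) (hSC : IsSyl (S ⊓ C) C) {t : G}
    (htS : t ∈ S) (htC : t ∈ C) (ht2 : t * t = 1) (htc : ∀ s ∈ S, s * t = t * s) :
    ∃ v ∈ H, v ∈ S ∧ v ∈ C ∧ v * v = 1 ∧ (∀ s ∈ S, s ∈ C → s * v = v * s) ∧
      ∀ c ∈ C, c * (t * v) * c⁻¹ * (t * v)⁻¹ ∈ oc C := by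
  have hP : ∀ x : C, x ∈ (hSC.toSylow : Subgroup C) ↔ (x : G) ∈ S := by
    intro x
    rw [hSC.coe_toSylow, mem_subgroupOf, mem_inf]
    exact ⟨fun h => h.1, fun h => ⟨h, x.2⟩⟩
  have hn : (H.subgroupOf C).Normal := ⟨fun x hx c => by
    rw [mem_subgroupOf] at hx ⊢
    exact h.Hn c _ hx⟩
  obtain ⟨v, hvN, hvS, hv2, hvc, hvm⟩ := CentralMod.exists_central_mod hSC.toSylow (t := ⟨t, htC⟩)
    ((hP _).2 htS) (Subtype.ext ht2) (fun s hs => Subtype.ext (htc s ((hP s).1 hs))) (H.subgroupOf C) hn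
    (by
      intro x hx
      rw [mem_subgroupOf]
      exact h.le_of_odd (oc_odd C) ⟨x, hx, rfl⟩)
    (by
      intro c
      rw [mem_subgroupOf]
      exact h.comm_mem htc c)
  refine ⟨v, mem_subgroupOf.1 hvN, (hP v).1 hvS, v.2, congrArg Subtype.val hv2, ?_, ?_⟩
  · intro s hs hsC
    exact congrArg Subtype.val (hvc ⟨s, hsC⟩ ((hP _).2 hs))
  · intro c hc
    exact ⟨_, hvm ⟨c, hc⟩, rfl⟩

end Sit

end Cfsg.Agent.H444.ZNSit
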